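import Mathlib
import Cfsg.Prelude.Def_Characters
import Cfsg.Prelude.Def_OddOrderChar
import Cfsg.Prelude.Def_OddOrderLocal
import Cfsg.Agent.Lib.Helper25.TIInd
import Cfsg.Agent.Lib.Helper25.CyclicTI
import Cfsg.Agent.S1511

/-!
Group-theoretic part of the construction of the cyclic TI family: the set
`W \ (W₁ ∪ W₂)` is a TI set with normaliser `W`; orders of `W₁`, `W₂`.
-/

set_option autoImplicit false

namespace Cfsg.Agent.Lib.Helper25.CycTI1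

open Cfsg

variable {G : Type*} [Group G]

theorem mem_setNormalizer (S : Set G) (g : G) :
    g ∈ Subgroup.normalizer S ↔ ∀ n, n ∈ S ↔ g * n * g⁻¹ ∈ S := Iff.rfl

theorem mem_norm_singleton (a y : G) :
    y ∈ Subgroup.normalizer ({a} : Set G) ↔ y * a * y⁻¹ = a := by
  rw [mem_setNormalizer]
  constructor
  · intro h
    exact (h a).mp rfl
  · intro h n
    constructor
    · intro hn
      rw [Set.mem_singleton_iff] at hn
      rw [hn]
      exact h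
    · intro hn
      rw [Set.mem_singleton_iff] at hn
      rw [Set.mem_singleton_iff]
      have h2 : y * n * y⁻¹ = y * a * y⁻¹ := by rw [hn, h]
      exact mul_left_cancel (mul_right_cancel h2)

/-- conjugation by an element normalising a cyclic subgroup acts on it as a power map -/
theorem conj_eq_zpow (W : Subgroup G) (hcyc : IsCyclic ↥W) (g : G)
    (hg : ∀ w ∈ W, g * w * g⁻¹ ∈ W) : ∃ k : ℤ, ∀ w ∈ W, g * w * g⁻¹ = w ^ k := by
  have := hcyc
  obtain ⟨c, hc⟩ := IsCyclic.exists_generator (α := ↥W)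
  have h1 := hg c c.2
  obtain ⟨k, hk⟩ := Subgroup.mem_zpowers_iff.mp (hc ⟨g * c * g⁻¹, h1⟩)
  have hk' : (c : G) ^ k = g * c * g⁻¹ := by
    have := congrArg (Subtype.val) hk
    simpa using this
  refine ⟨k, fun w hw => ?_⟩
  obtain ⟨m, hm⟩ := Subgroup.mem_zpowers_iff.mp (hc ⟨w, hw⟩)
  have hm' : (c : G) ^ m = w := by
    have := congrArg (Subtype.val) hm
    simpa using this
  rw [← hm', ← conj_zpow, ← hk', ← zpow_mul, ← zpow_mul, mul_comm]

theorem conj_fix (a g w : G) (hw : w * a * w⁻¹ = a) :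
    (g * w * g⁻¹) * (g * a * g⁻¹) * (g * w * g⁻¹)⁻¹ = g * a * g⁻¹ := by
  have : (g * w * g⁻¹) * (g * a * g⁻¹) * (g * w * g⁻¹)⁻¹ = g * (w * a * w⁻¹) * g⁻¹ := by group
  rw [this, hw]

/-- the TI set `W \ (W₁ ∪ W₂)` -/
def tiSet (W₁ W₂ : Subgroup G) : Set G := {g : G | g ∈ W₁ ⊔ W₂ ∧ g ∉ W₁ ∧ g ∉ W₂}

theorem tiSet_nonempty (W₁ W₂ : Subgroup G) (hW : IsSelfNormalizingCyclic W₁ W₂) :
    (tiSet W₁ W₂).Nonempty := by
  obtain ⟨h1, h2, hdisj, -, -, -⟩ := hW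
  obtain ⟨a, ha1⟩ := (Subgroup.ne_bot_iff_exists_ne_one).mp h1
  obtain ⟨b, hb1⟩ := (Subgroup.ne_bot_iff_exists_ne_one).mp h2
  have ha' : (a : G) ≠ 1 := fun h => ha1 (Subtype.ext h)
  have hb' : (b : G) ≠ 1 := fun h => hb1 (Subtype.ext h)
  refine ⟨(a : G) * (b : G), Subgroup.mul_mem _ (Subgroup.mem_sup_left a.2)
    (Subgroup.mem_sup_right b.2), fun h => hb' ?_, fun h => ha' ?_⟩
  · have hbW1 : (b : G) ∈ W₁ := by
      have := W₁.mul_mem (W₁.inv_mem a.2) h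
      simpa using this
    have : (b : G) ∈ W₁ ⊓ W₂ := ⟨hbW1, b.2⟩
    rw [hdisj] at this
    exact this
  · have haW2 : (a : G) ∈ W₂ := by
      have := W₂.mul_mem h (W₂.inv_mem b.2)
      simpa using this
    have : (a : G) ∈ W₁ ⊓ W₂ := ⟨a.2, haW2⟩
    rw [hdisj] at this
    exact this

theorem dade (W₁ W₂ : Subgroup G) (hW : IsSelfNormalizingCyclic W₁ W₂) :
    DadeHypothesis (tiSet W₁ W₂) (W₁ ⊔ W₂) (fun _ => (⊥ : Subgroup G)) := by
  have hne := tiSet_nonempty W₁ W₂ hW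
  obtain ⟨h1, h2, hdisj, hcomm, hcyc, hN⟩ := hW
  have hWcomm := Cfsg.Agent.S1511.cyclic_comm (W₁ ⊔ W₂) hcyc
  have hAsub : tiSet W₁ W₂ ⊆ (↑(W₁ ⊔ W₂) : Set G) \ (↑W₁ ∪ ↑W₂) := by
    intro g hg
    exact ⟨hg.1, fun h => h.elim hg.2.1 hg.2.2⟩
  have hNorm : ∀ X : Set G, X ⊆ tiSet W₁ W₂ → X.Nonempty → Subgroup.normalizer X = W₁ ⊔ W₂ :=
    fun X hX hne => hN X (hX.trans hAsub) hne
  apply Cfsg.Agent.Lib.Helper25.TIInd.dade_of_TI
  · intro h
    exact h.2.1 (Subgroup.one_mem _)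
  · intro g hg
    exact hg.1
  · intro x hx a ha
    have : x * a * x⁻¹ = a := by
      rw [hWcomm x hx a ha.1]; group
    rw [this]
    exact ha
  · intro a ha g hb
    have hNa := hNorm {a} (by intro x hx; rw [Set.mem_singleton_iff] at hx; rw [hx]; exact ha)
      ⟨a, rfl⟩
    have hNb := hNorm {g * a * g⁻¹}
      (by intro x hx; rw [Set.mem_singleton_iff] at hx; rw [hx]; exact hb) ⟨_, rfl⟩
    have hgW : ∀ w ∈ W₁ ⊔ W₂, g * w * g⁻¹ ∈ W₁ ⊔ W₂ := by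
      intro w hw
      rw [← hNb, mem_norm_singleton]
      rw [← hNa, mem_norm_singleton] at hw
      exact conj_fix a g w hw
    have hgW' : ∀ w ∈ W₁ ⊔ W₂, g⁻¹ * w * g⁻¹⁻¹ ∈ W₁ ⊔ W₂ := by
      intro w hw
      rw [← hNa, mem_norm_singleton]
      rw [← hNb, mem_norm_singleton] at hw
      have h3 := conj_fix (g * a * g⁻¹) g⁻¹ w hw
      have h4 : g⁻¹ * (g * a * g⁻¹) * g⁻¹⁻¹ = a := by group
      rw [h4] at h3
      exact h3
    obtain ⟨k, hk⟩ := conj_eq_zpow (W₁ ⊔ W₂) hcyc g hgW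
    obtain ⟨k', hk'⟩ := conj_eq_zpow (W₁ ⊔ W₂) hcyc g⁻¹ hgW'
    rw [← hNorm (tiSet W₁ W₂) subset_rfl hne, mem_setNormalizer]
    intro n
    constructor
    · intro hn
      have e : n = g⁻¹ * (g * n * g⁻¹) * g⁻¹⁻¹ := by group
      refine ⟨hgW n hn.1, fun h1' => hn.2.1 ?_, fun h2' => hn.2.2 ?_⟩
      · rw [e, hk' _ (hgW n hn.1)]
        exact Subgroup.zpow_mem _ h1' _
      · rw [e, hk' _ (hgW n hn.1)]
        exact Subgroup.zpow_mem _ h2' _
    · intro hn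
      have e : n = g⁻¹ * (g * n * g⁻¹) * g⁻¹⁻¹ := by group
      have hnW : n ∈ W₁ ⊔ W₂ := by
        rw [e]
        exact hgW' _ hn.1
      refine ⟨hnW, fun h1' => hn.2.1 ?_, fun h2' => hn.2.2 ?_⟩
      · rw [hk n hnW]
        exact Subgroup.zpow_mem _ h1' _
      · rw [hk n hnW]
        exact Subgroup.zpow_mem _ h2' _

theorem cards [Finite G] (W₁ W₂ : Subgroup G) (hW : IsSelfNormalizingCyclic W₁ W₂)
    (hodd : Odd (Nat.card ↥(W₁ ⊔ W₂))) :
    (Nat.card W₁ = 3 ∨ 5 ≤ Nat.card W₁) ∧ (Nat.card W₂ = 3 ∨ 5 ≤ Nat.card W₂) ∧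
      (5 ≤ Nat.card W₁ ∨ 5 ≤ Nat.card W₂) := by
  obtain ⟨h1, h2, hdisj, hcomm, hcyc, -⟩ := hW
  obtain ⟨e, he⟩ := Cfsg.Agent.S1507.exists_prodEquiv W₁ W₂ hdisj hcomm
  have hcard : Nat.card ↥(W₁ ⊔ W₂) = Nat.card W₁ * Nat.card W₂ := by
    rw [← Nat.card_prod]
    exact (Nat.card_congr e.toEquiv).symm
  rw [hcard] at hodd
  obtain ⟨o1, o2⟩ := Nat.odd_mul.mp hodd
  have g1 : 1 < Nat.card W₁ := (Subgroup.one_lt_card_iff_ne_bot W₁).mpr h1
  have g2 : 1 < Nat.card W₂ := (Subgroup.one_lt_card_iff_ne_bot W₂).mpr h2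
  obtain ⟨m1, hm1⟩ := o1
  obtain ⟨m2, hm2⟩ := o2
  refine ⟨by omega, by omega, ?_⟩
  by_contra hcon
  push Not at hcon
  have c1 : Nat.card W₁ = 3 := by omega
  have c2 : Nat.card W₂ = 3 := by omega
  have := hcyc
  obtain ⟨c, hc⟩ := IsCyclic.exists_generator (α := ↥(W₁ ⊔ W₂))
  have ho := orderOf_eq_card_of_forall_mem_zpowers hc
  rw [hcard, c1, c2] at ho
  obtain ⟨⟨a, b⟩, hab⟩ := e.surjective c
  have hc3 : c ^ 3 = 1 := by
    apply Subtype.ext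
    rw [Subgroup.coe_pow, ← hab, he]
    show ((a : G) * (b : G)) ^ 3 = ((1 : ↥(W₁ ⊔ W₂)) : G)
    have hcm : Commute (a : G) (b : G) := hcomm a a.2 b b.2
    rw [hcm.mul_pow]
    have ha3 : (a : G) ^ 3 = 1 := by
      have := pow_card_eq_one' (G := ↥W₁) (x := a)
      rw [c1] at this
      have h' := congrArg Subtype.val this
      simpa using h'
    have hb3 : (b : G) ^ 3 = 1 := by
      have := pow_card_eq_one' (G := ↥W₂) (x := b)
      rw [c2] at this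
      have h' := congrArg Subtype.val this
      simpa using h'
    rw [ha3, hb3, one_mul]
    rfl
  have hdvd := orderOf_dvd_of_pow_eq_one hc3
  rw [ho] at hdvd
  omega

end Cfsg.Agent.Lib.Helper25.CycTI1
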