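import Mathlib
import Cfsg.Prelude.Def_Characters
import Cfsg.Prelude.Def_OddOrderChar
import Cfsg.Prelude.Def_OddOrderLocal
import Cfsg.Agent.Lib.Helper25.CycTI1
import Cfsg.Agent.Lib.CT.LinChar
import Cfsg.Agent.Lib.CT.FrobRec
import Cfsg.Agent.Lib.Helper3.Irr
import Cfsg.Agent.Lib.Helper26.GenChar

/-!
Linear characters of `W = W₁ × W₂` and the functions `(1 - φ)(1 - ψ)`.
-/

set_option autoImplicit false
set_option linter.unusedSectionVars false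

namespace Cfsg.Agent.Lib.Helper25.CycTI2

open Cfsg
open scoped ComplexConjugate
open Cfsg.Agent.Lib.Helper25.CycTI1

variable {G : Type*} [Group G] {W₁ W₂ : Subgroup G}
  (e : (↥W₁ × ↥W₂) ≃* ↥(W₁ ⊔ W₂))
  (E : (↥W₁ →* ℂˣ) × (↥W₂ →* ℂˣ) ≃ (↥(W₁ ⊔ W₂) →* ℂˣ))
  (he : ∀ p : ↥W₁ × ↥W₂, ((e p : ↥(W₁ ⊔ W₂)) : G) = p.1 * p.2)
  (hE : ∀ (α : ↥W₁ →* ℂˣ) (β : ↥W₂ →* ℂˣ) (a : ↥W₁) (b : ↥W₂),
    E (α, β) (e (a, b)) = α a * β b)

/-- a linear character as a complex function -/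
def lin {H : Type*} [Group H] (ω : H →* ℂˣ) : H → ℂ := fun w => ((ω w : ℂˣ) : ℂ)

/-- the function `(1 - φ)(1 - ψ)` for `φ = E(i,1)`, `ψ = E(1,j)` -/
def alpha (i : ↥W₁ →* ℂˣ) (j : ↥W₂ →* ℂˣ) : ↥(W₁ ⊔ W₂) → ℂ :=
  fun w => 1 - ((E (i, 1) w : ℂˣ) : ℂ) - ((E (1, j) w : ℂˣ) : ℂ)
    + ((E (i, 1) w : ℂˣ) : ℂ) * ((E (1, j) w : ℂˣ) : ℂ)

include hE in
theorem E_apply_mul (i : ↥W₁ →* ℂˣ) (j : ↥W₂ →* ℂˣ) (w : ↥(W₁ ⊔ W₂)) :
    E (i, j) w = E (i, 1) w * E (1, j) w := by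
  obtain ⟨⟨a, b⟩, rfl⟩ := e.surjective w
  rw [hE, hE, hE]
  simp

include hE in
theorem E_one : E (1, 1) = 1 := by
  apply MonoidHom.ext
  intro w
  obtain ⟨⟨a, b⟩, rfl⟩ := e.surjective w
  rw [hE]
  simp

include he hE in
theorem E_left_triv (hdisj : W₁ ⊓ W₂ = ⊥) (i : ↥W₁ →* ℂˣ) (w : ↥(W₁ ⊔ W₂))
    (hw : (w : G) ∈ W₂) : E (i, 1) w = 1 := by
  obtain ⟨⟨a, b⟩, rfl⟩ := e.surjective w
  rw [he] at hw
  have ha : (a : G) ∈ W₂ := by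
    have := W₂.mul_mem hw (W₂.inv_mem b.2)
    simpa using this
  have ha1 : a = 1 := by
    have : (a : G) ∈ W₁ ⊓ W₂ := ⟨a.2, ha⟩
    rw [hdisj] at this
    exact Subtype.ext this
  rw [hE, ha1]
  simp

include he hE in
theorem E_right_triv (hdisj : W₁ ⊓ W₂ = ⊥) (j : ↥W₂ →* ℂˣ) (w : ↥(W₁ ⊔ W₂))
    (hw : (w : G) ∈ W₁) : E (1, j) w = 1 := by
  obtain ⟨⟨a, b⟩, rfl⟩ := e.surjective w
  rw [he] at hw
  have hb : (b : G) ∈ W₁ := by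
    have := W₁.mul_mem (W₁.inv_mem a.2) hw
    simpa using this
  have hb1 : b = 1 := by
    have : (b : G) ∈ W₁ ⊓ W₂ := ⟨hb, b.2⟩
    rw [hdisj] at this
    exact Subtype.ext this
  rw [hE, hb1]
  simp

theorem lin_inner {H : Type*} [Group H] [Fintype H] (ω ω' : H →* ℂˣ) [Decidable (ω = ω')] :
    classInner (lin ω) (lin ω') = if ω = ω' then 1 else 0 := by
  by_cases h : ω = ω'
  · rw [if_pos h, h]
    exact Cfsg.Agent.Lib.Helper3.Irr.irr_inner_self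
      ⟨lin ω', Cfsg.Agent.Lib.CT.LinChar.isIrrCharacter_of_hom ω'⟩
  · rw [if_neg h]
    refine Cfsg.Agent.Lib.Helper3.Irr.irr_inner_ne
      (χ := ⟨lin ω, Cfsg.Agent.Lib.CT.LinChar.isIrrCharacter_of_hom ω⟩)
      (ψ := ⟨lin ω', Cfsg.Agent.Lib.CT.LinChar.isIrrCharacter_of_hom ω'⟩) ?_
    intro heq
    apply h
    apply MonoidHom.ext
    intro w
    have h1 := congrFun (congrArg Subtype.val heq) w
    exact Units.ext h1

include hE in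
theorem alpha_eq (i : ↥W₁ →* ℂˣ) (j : ↥W₂ →* ℂˣ) :
    alpha E i j = lin (E (1, 1)) - lin (E (i, 1)) - lin (E (1, j)) + lin (E (i, j)) := by
  funext w
  simp only [alpha, lin, Pi.add_apply, Pi.sub_apply]
  rw [E_one e E hE, E_apply_mul e E hE i j w]
  simp

include hE in
theorem alpha_inner [Fintype ↥(W₁ ⊔ W₂)] [DecidableEq (↥W₁ →* ℂˣ)] [DecidableEq (↥W₂ →* ℂˣ)]
    (i : ↥W₁ →* ℂˣ) (j : ↥W₂ →* ℂˣ) (i' : ↥W₁ →* ℂˣ) (j' : ↥W₂ →* ℂˣ)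
    (hi : i ≠ 1) (hj : j ≠ 1) (hi' : i' ≠ 1) (hj' : j' ≠ 1) :
    classInner (alpha E i j) (alpha E i' j') = (if i = i' then 1 else 0)
      + (if j = j' then 1 else 0) + (if i = i' ∧ j = j' then 1 else 0) + 1 := by
  classical
  rw [alpha_eq e E hE, alpha_eq e E hE]
  simp only [Cfsg.Agent.Lib.Helper3.Irr.classInner_add_left,
    Cfsg.Agent.Lib.Helper3.Irr.classInner_sub_left,
    Cfsg.Agent.Lib.Helper26.GenChar.classInner_add_right,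
    Cfsg.Agent.Lib.Helper26.GenChar.classInner_sub_right, lin_inner, E.injective.eq_iff,
    Prod.mk.injEq]
  by_cases h1 : i = i' <;> by_cases h2 : j = j' <;>
    simp [h1, h2, hi, hj, hi', hj', Ne.symm hi, Ne.symm hj, Ne.symm hi', Ne.symm hj'] <;>
    norm_num

include hE in
theorem alpha_one_inner [Fintype ↥(W₁ ⊔ W₂)]
    (i : ↥W₁ →* ℂˣ) (j : ↥W₂ →* ℂˣ) (hi : i ≠ 1) (hj : j ≠ 1) :
    classInner (alpha E i j) (fun _ => 1) = 1 := by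
  classical
  have h1 : (fun _ : ↥(W₁ ⊔ W₂) => (1 : ℂ)) = lin (E (1, 1)) := by
    funext w
    simp [lin, E_one e E hE]
  rw [h1, alpha_eq e E hE]
  simp only [Cfsg.Agent.Lib.Helper3.Irr.classInner_add_left,
    Cfsg.Agent.Lib.Helper3.Irr.classInner_sub_left, lin_inner, E.injective.eq_iff,
    Prod.mk.injEq]
  simp [hi, hj]

include he hE in
theorem alpha_vanish (hdisj : W₁ ⊓ W₂ = ⊥) (i : ↥W₁ →* ℂˣ) (j : ↥W₂ →* ℂˣ)
    (w : ↥(W₁ ⊔ W₂)) (hw : (w : G) ∉ tiSet W₁ W₂) : alpha E i j w = 0 := by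
  by_cases h1 : (w : G) ∈ W₁
  · simp only [alpha]
    rw [E_right_triv e E he hE hdisj j w h1]
    simp
  · have h2 : (w : G) ∈ W₂ := by
      by_contra h2
      exact hw ⟨w.2, h1, h2⟩
    simp only [alpha]
    rw [E_left_triv e E he hE hdisj i w h2]
    simp

include hE in
theorem alpha_left_one (j : ↥W₂ →* ℂˣ) : alpha E 1 j = 0 := by
  funext w
  simp only [alpha]
  rw [E_one e E hE]
  simp

include hE in
theorem alpha_right_one (i : ↥W₁ →* ℂˣ) : alpha E i 1 = 0 := by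
  funext w
  simp only [alpha]
  rw [E_one e E hE]
  simp

theorem alpha_at_one (i : ↥W₁ →* ℂˣ) (j : ↥W₂ →* ℂˣ) : alpha E i j 1 = 0 := by
  simp [alpha]

theorem isClassFunction_of_comm (W : Subgroup G) (hWcomm : ∀ a ∈ W, ∀ b ∈ W, a * b = b * a)
    (f : ↥W → ℂ) : IsClassFunction ↥W f := by
  intro g h
  congr 1
  apply Subtype.ext
  simp only [Subgroup.coe_mul, Subgroup.coe_inv]
  rw [hWcomm h h.2 g g.2]
  group

theorem conj_hom {H : Type*} [Group H] [Finite H] (ω : H →* ℂˣ) (x : H) :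
    conj ((ω x : ℂˣ) : ℂ) = ((ω x⁻¹ : ℂˣ) : ℂ) := by
  have h := Cfsg.Agent.Lib.CT.LinChar.linear_apply_inv_eq_conj
    (μ := fun g => ((ω g : ℂˣ) : ℂ)) (Cfsg.Agent.Lib.CT.LinChar.isCharacter_of_hom ω)
    (by simp) x
  exact h.symm

end Cfsg.Agent.Lib.Helper25.CycTI2
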