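import Mathlib
import Cfsg.Prelude.Def_Characters
import Cfsg.Prelude.Def_OddOrderChar
import Cfsg.Prelude.Def_OddOrderLocal
import Cfsg.Agent.Lib.Helper25.CycTI2
import Cfsg.Agent.S0170

/-!
Values on the TI set of a class function, from its inner products with the induced functions
`Ind (1 - φ)(1 - ψ)`; integer combinations of irreducible characters.
-/

set_option autoImplicit false
set_option linter.unusedSectionVars false

namespace Cfsg.Agent.Lib.Helper25.CycTI2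

open Cfsg
open scoped ComplexConjugate
open Cfsg.Agent.Lib.Helper25.CycTI1

variable {G : Type*} [Group G] {W₁ W₂ : Subgroup G}
  (e : (↥W₁ × ↥W₂) ≃* ↥(W₁ ⊔ W₂))
  (E : (↥W₁ →* ℂˣ) × (↥W₂ →* ℂˣ) ≃ (↥(W₁ ⊔ W₂) →* ℂˣ))
  (he : ∀ p : ↥W₁ × ↥W₂, ((e p : ↥(W₁ ⊔ W₂)) : G) = p.1 * p.2)
  (hE : ∀ (α : ↥W₁ →* ℂˣ) (β : ↥W₂ →* ℂˣ) (a : ↥W₁) (b : ↥W₂),
    E (α, β) (e (a, b)) = α a * β b)

theorem sum_aux [Finite G] (K : Subgroup G) (hK : ∀ a ∈ K, ∀ b ∈ K, a * b = b * a)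
    [Fintype (↥K →* ℂˣ)] (a a' : K) (ha : a ≠ 1) [Decidable (a' = a)] :
    ∑ k : ↥K →* ℂˣ, (((k a⁻¹ : ℂˣ) : ℂ) - ((k (a⁻¹ * a') : ℂˣ) : ℂ))
      = if a' = a then -(Nat.card K : ℂ) else 0 := by
  rw [Finset.sum_sub_distrib, Cfsg.Agent.Lib.Helper25.CyclicTI.sum_hom_sub K hK a⁻¹,
    Cfsg.Agent.Lib.Helper25.CyclicTI.sum_hom_sub K hK (a⁻¹ * a'),
    if_neg (inv_ne_one.mpr ha), zero_sub]
  by_cases h : a' = a
  · rw [if_pos h, if_pos (by rw [h]; exact inv_mul_cancel a)]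
  · rw [if_neg h, if_neg (fun h' => h (by rw [inv_mul_eq_one] at h'; exact h'.symm)), neg_zero]

include hE in
theorem delta [Finite G] (hc1 : ∀ a ∈ W₁, ∀ b ∈ W₁, a * b = b * a)
    (hc2 : ∀ a ∈ W₂, ∀ b ∈ W₂, a * b = b * a)
    [Fintype (↥W₁ →* ℂˣ)] [Fintype (↥W₂ →* ℂˣ)]
    (a : ↥W₁) (b : ↥W₂) (ha : a ≠ 1) (hb : b ≠ 1) (u : ↥(W₁ ⊔ W₂))
    [Decidable (u = e (a, b))] :
    ∑ k : ↥W₁ →* ℂˣ, ∑ l : ↥W₂ →* ℂˣ,
        conj ((E (k, l) (e (a, b)) : ℂˣ) : ℂ) * alpha E k l u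
      = if u = e (a, b) then (Nat.card ↥(W₁ ⊔ W₂) : ℂ) else 0 := by
  classical
  obtain ⟨⟨a', b'⟩, rfl⟩ := e.surjective u
  have hterm : ∀ (k : ↥W₁ →* ℂˣ) (l : ↥W₂ →* ℂˣ),
      conj ((E (k, l) (e (a, b)) : ℂˣ) : ℂ) * alpha E k l (e (a', b')) =
      (((k a⁻¹ : ℂˣ) : ℂ) - ((k (a⁻¹ * a') : ℂˣ) : ℂ)) *
        (((l b⁻¹ : ℂˣ) : ℂ) - ((l (b⁻¹ * b') : ℂˣ) : ℂ)) := by
    intro k l
    rw [hE, Units.val_mul, map_mul, conj_hom, conj_hom]
    simp only [alpha]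
    rw [hE, hE]
    simp only [MonoidHom.one_apply, mul_one, one_mul, map_mul, Units.val_mul]
    ring
  simp only [hterm]
  have hprod := Finset.sum_mul_sum (Finset.univ : Finset (↥W₁ →* ℂˣ))
    (Finset.univ : Finset (↥W₂ →* ℂˣ))
    (fun k : ↥W₁ →* ℂˣ => ((k a⁻¹ : ℂˣ) : ℂ) - ((k (a⁻¹ * a') : ℂˣ) : ℂ))
    (fun l : ↥W₂ →* ℂˣ => ((l b⁻¹ : ℂˣ) : ℂ) - ((l (b⁻¹ * b') : ℂˣ) : ℂ))
  beta_reduce at hprod
  rw [← hprod, sum_aux W₁ hc1 a a' ha, sum_aux W₂ hc2 b b' hb]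
  have hN : (Nat.card ↥(W₁ ⊔ W₂) : ℂ) = (Nat.card W₁ : ℂ) * (Nat.card W₂ : ℂ) := by
    rw [← Nat.cast_mul, ← Nat.card_prod]
    exact congrArg _ (Nat.card_congr e.toEquiv).symm
  have hiff : e (a', b') = e (a, b) ↔ a' = a ∧ b' = b := by
    rw [e.injective.eq_iff, Prod.mk.injEq]
  by_cases h1 : a' = a
  · by_cases h2 : b' = b
    · rw [if_pos h1, if_pos h2, if_pos (hiff.mpr ⟨h1, h2⟩), hN]
      ring
    · rw [if_pos h1, if_neg h2, if_neg (fun h => h2 (hiff.mp h).2), mul_zero]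
  · rw [if_neg h1, if_neg (fun h => h1 (hiff.mp h).1), zero_mul]

include hE in
/-- the value of a class function at a point of the TI set -/
theorem value_formula [Fintype G] [Fintype ↥(W₁ ⊔ W₂)]
    (hc1 : ∀ a ∈ W₁, ∀ b ∈ W₁, a * b = b * a)
    (hc2 : ∀ a ∈ W₂, ∀ b ∈ W₂, a * b = b * a)
    [Fintype (↥W₁ →* ℂˣ)] [Fintype (↥W₂ →* ℂˣ)] (f : G → ℂ) (hf : IsClassFunction G f)
    (a : ↥W₁) (b : ↥W₂) (ha : a ≠ 1) (hb : b ≠ 1) :
    f ((e (a, b) : ↥(W₁ ⊔ W₂)) : G) = ∑ k : ↥W₁ →* ℂˣ, ∑ l : ↥W₂ →* ℂˣ,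
      ((E (k, l) (e (a, b)) : ℂˣ) : ℂ) * classInner f (indFun (W₁ ⊔ W₂) (alpha E k l)) := by
  classical
  have h1 : ∀ (k : ↥W₁ →* ℂˣ) (l : ↥W₂ →* ℂˣ),
      classInner f (indFun (W₁ ⊔ W₂) (alpha E k l))
        = classInner (fun h : ↥(W₁ ⊔ W₂) => f h) (alpha E k l) :=
    fun k l => Cfsg.Agent.Lib.CT.FrobRec.frobenius_reciprocity' _ _ f hf
  simp only [h1]
  have h2 : ∑ k : ↥W₁ →* ℂˣ, ∑ l : ↥W₂ →* ℂˣ, ((E (k, l) (e (a, b)) : ℂˣ) : ℂ) *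
      classInner (fun h : ↥(W₁ ⊔ W₂) => f h) (alpha E k l)
      = classInner (fun h : ↥(W₁ ⊔ W₂) => f h)
        (∑ k : ↥W₁ →* ℂˣ, ∑ l : ↥W₂ →* ℂˣ,
          conj ((E (k, l) (e (a, b)) : ℂˣ) : ℂ) • alpha E k l) := by
    rw [Cfsg.Agent.Lib.Helper26.GenChar.classInner_sum_right]
    refine Finset.sum_congr rfl (fun k _ => ?_)
    rw [Cfsg.Agent.Lib.Helper26.GenChar.classInner_sum_right]
    refine Finset.sum_congr rfl (fun l _ => ?_)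
    rw [Cfsg.Agent.Lib.Helper26.GenChar.classInner_smul_right, Complex.conj_conj]
  rw [h2]
  have h3 : (∑ k : ↥W₁ →* ℂˣ, ∑ l : ↥W₂ →* ℂˣ,
      conj ((E (k, l) (e (a, b)) : ℂˣ) : ℂ) • alpha E k l)
      = fun u => if u = e (a, b) then (Nat.card ↥(W₁ ⊔ W₂) : ℂ) else 0 := by
    funext u
    simp only [Finset.sum_apply, Pi.smul_apply, smul_eq_mul]
    exact delta e E hE hc1 hc2 a b ha hb u
  rw [h3]
  unfold classInner
  simp only [apply_ite (starRingEnd ℂ), map_natCast, map_zero, mul_ite, mul_zero,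
    Finset.sum_ite_eq', Finset.mem_univ, if_true]
  have hN : (Nat.card ↥(W₁ ⊔ W₂) : ℂ) ≠ 0 := by
    exact_mod_cast (Nat.card_pos (α := ↥(W₁ ⊔ W₂))).ne'
  field_simp

theorem inner_sum_int {G : Type*} [Group G] [Fintype G] [Fintype (IrrCharacter G)]
    (a b : IrrCharacter G → ℤ) :
    classInner (∑ ψ : IrrCharacter G, (a ψ : ℂ) • (ψ : G → ℂ))
      (∑ ψ : IrrCharacter G, (b ψ : ℂ) • (ψ : G → ℂ)) = ((dotProduct a b : ℤ) : ℂ) := by
  classical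
  rw [Cfsg.Agent.S0170.inner_expand]
  unfold dotProduct
  push_cast
  refine Finset.sum_congr rfl (fun φ _ => ?_)
  rw [Cfsg.Agent.Lib.Helper3.Irr.classInner_sum_left]
  have h1 : ∀ ψ : IrrCharacter G, classInner ((a ψ : ℂ) • (ψ : G → ℂ)) (φ : G → ℂ)
      = if ψ = φ then (a ψ : ℂ) else 0 := by
    intro ψ
    rw [Cfsg.Agent.Lib.Helper3.Irr.classInner_smul_left]
    by_cases h : ψ = φ
    · rw [if_pos h, h, Cfsg.Agent.Lib.Helper3.Irr.irr_inner_self, mul_one]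
    · rw [if_neg h, Cfsg.Agent.Lib.Helper3.Irr.irr_inner_ne h, mul_zero]
  simp only [h1, Finset.sum_ite_eq', Finset.mem_univ, if_true, map_intCast]

/-- An integer combination of irreducible characters is a generalized character. -/
theorem isGeneralizedCharacter_sum_int {G : Type*} [Group G] [Fintype (IrrCharacter G)]
    (c : IrrCharacter G → ℤ) :
    IsGeneralizedCharacter G (∑ ψ : IrrCharacter G, (c ψ : ℂ) • (ψ : G → ℂ)) := by
  classical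
  have key : ∀ s : Finset (IrrCharacter G),
      IsGeneralizedCharacter G (∑ ψ ∈ s, (c ψ : ℂ) • (ψ : G → ℂ)) := by
    intro s
    induction s using Finset.induction_on with
    | empty =>
      rw [Finset.sum_empty]
      exact Cfsg.Agent.Lib.Helper26.GenChar.isGeneralizedCharacter_zero
    | insert a s ha ih =>
      rw [Finset.sum_insert ha]
      apply Cfsg.Agent.Lib.Helper26.GenChar.isGeneralizedCharacter_add _ ih
      have h1 : (c a : ℂ) • (a : G → ℂ) = c a • (a : G → ℂ) := by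
        funext x
        simp
      rw [h1]
      exact Cfsg.Agent.Lib.Helper26.GenChar.isGeneralizedCharacter_zsmul
        (Cfsg.Agent.Lib.Helper26.GenChar.isGeneralizedCharacter_of_irr a.2) (c a)
  exact key Finset.univ

theorem isClassFunction_of_gen {G : Type*} [Group G] {θ : G → ℂ}
    (h : IsGeneralizedCharacter G θ) : IsClassFunction G θ := by
  obtain ⟨χ, ψ, h1, h2, rfl⟩ := h
  intro g x
  simp only [Pi.sub_apply]
  rw [Cfsg.Agent.Lib.Helper3.Irr.IsCharacter.isClassFunction h1 g x,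
    Cfsg.Agent.Lib.Helper3.Irr.IsCharacter.isClassFunction h2 g x]

end Cfsg.Agent.Lib.Helper25.CycTI2
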