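import Cfsg.Agent.S1500
import Cfsg.Agent.S1496
import Mathlib

/-!
Dade set-up: coprime elements of `C_G(a)` lie in `H a`, and the averaging lemma
(`avg_lemma`): for a subgroup `K` normalised by `l ∈ A` with `|K|` prime to `|C_L(l)|`,
the average of a class function over the coset `K l` equals its average over `(K ⊓ H l) l`.
-/

set_option autoImplicit false
open Cfsg

namespace Cfsg.Agent.Lib.Helper25.DadeAvg

variable {G : Type*} [Group G] [Fintype G] (A : Set G) (L : Subgroup G) (H : G → Subgroup G)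

/-- an element of `C_G(a)` of order coprime to `|C_L(a)|` lies in `H a` -/
theorem mem_H_of_coprime (hD : DadeHypothesis A L H) (a : G) (ha : a ∈ A) (y : G)
    (hy : y ∈ Subgroup.centralizer ({a} : Set G))
    (hcop : Nat.Coprime (orderOf y) (Nat.card ↥(L ⊓ Subgroup.centralizer ({a} : Set G)))) :
    y ∈ H a := by
  have hNC : H a ≤ Subgroup.centralizer ({a} : Set G) := hD.le_centralizer a ha
  haveI hnorm : ((H a).subgroupOf (Subgroup.centralizer ({a} : Set G))).Normal := by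
    constructor
    intro n hn c
    rw [Subgroup.mem_subgroupOf] at hn ⊢
    exact hD.conj_mem_H a ha c c.2 n hn
  have hsup : (H a).subgroupOf (Subgroup.centralizer ({a} : Set G)) ⊔
      (L ⊓ Subgroup.centralizer ({a} : Set G)).subgroupOf (Subgroup.centralizer ({a} : Set G)) = ⊤ := by
    rw [← Subgroup.subgroupOf_sup hNC inf_le_right, hD.sup_eq a ha]
    exact Subgroup.subgroupOf_self _
  have hidx : ((H a).subgroupOf (Subgroup.centralizer ({a} : Set G))).index ∣
      Nat.card ↥(L ⊓ Subgroup.centralizer ({a} : Set G)) := by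
    rw [← Subgroup.relIndex_top_right, ← hsup, Subgroup.relIndex_sup_left]
    have := Subgroup.relIndex_dvd_card ((H a).subgroupOf (Subgroup.centralizer ({a} : Set G)))
      ((L ⊓ Subgroup.centralizer ({a} : Set G)).subgroupOf (Subgroup.centralizer ({a} : Set G)))
    rwa [Nat.card_congr (Subgroup.subgroupOfEquivOfLe
      (inf_le_right : L ⊓ Subgroup.centralizer ({a} : Set G) ≤ _)).toEquiv] at this
  have hord : orderOf (⟨y, hy⟩ : Subgroup.centralizer ({a} : Set G)) = orderOf y :=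
    Subgroup.orderOf_mk _ _
  have hcop' : (((H a).subgroupOf (Subgroup.centralizer ({a} : Set G))).index).Coprime
      (orderOf (⟨y, hy⟩ : Subgroup.centralizer ({a} : Set G))) := by
    rw [hord]
    exact (hcop.coprime_dvd_right hidx).symm
  have := Cfsg.Agent.S1498.mem_of_coprime_index _ _ hcop'
  rwa [Subgroup.mem_subgroupOf] at this

/-- the order of an element of `A` divides `|C_L(a)|` -/
theorem orderOf_dvd_card_CL (hD : DadeHypothesis A L H) (a : G) (ha : a ∈ A) :
    orderOf a ∣ Nat.card ↥(L ⊓ Subgroup.centralizer ({a} : Set G)) := by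
  have hmem : a ∈ L ⊓ Subgroup.centralizer ({a} : Set G) :=
    Subgroup.mem_inf.mpr ⟨hD.subset ha, Subgroup.mem_centralizer_singleton_iff.mpr rfl⟩
  exact Subgroup.orderOf_dvd_natCard _ hmem

open Classical in
theorem sum_ite_subgroup (K : Subgroup G) (f : G → ℂ) :
    ∑ h : G, (if h ∈ K then f h else 0) = ∑ h : K, f (h : G) := by
  rw [← Finset.sum_filter]
  exact Finset.sum_subtype (p := fun h : G => h ∈ K) _ (by simp) f

open Classical in
/-- averaging lemma -/
theorem avg_lemma (hD : DadeHypothesis A L H) (l : G) (hl : l ∈ A) (K : Subgroup G)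
    (hlK : l ∈ Subgroup.normalizer (K : Set G))
    (hcop : Nat.Coprime (Nat.card K) (Nat.card ↥(L ⊓ Subgroup.centralizer ({l} : Set G))))
    (χ : G → ℂ) (hχ : IsClassFunction G χ) :
    (Nat.card ↥(K ⊓ H l) : ℂ) * ∑ h : G, (if h ∈ K then χ (h * l) else 0) =
      (Nat.card K : ℂ) * ∑ c : G, (if c ∈ K ⊓ H l then χ (c * l) else 0) := by
  rw [sum_ite_subgroup K (fun h => χ (h * l)), sum_ite_subgroup (K ⊓ H l) (fun c => χ (c * l))]
  have hcopl : Nat.Coprime (orderOf l) (Nat.card K) :=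
    (hcop.coprime_dvd_right (orderOf_dvd_card_CL A L H hD l hl)).symm
  -- elements of K centralizing l lie in H l
  have hKC : ∀ k ∈ K, k * l = l * k → k ∈ K ⊓ H l := by
    intro k hk hkl
    refine Subgroup.mem_inf.mpr ⟨hk, ?_⟩
    apply mem_H_of_coprime A L H hD l hl k
    · rw [Subgroup.mem_centralizer_singleton_iff]; exact hkl
    · exact hcop.coprime_dvd_left (Subgroup.orderOf_dvd_natCard K hk)
  have hCl : ∀ c ∈ K ⊓ H l, c * l = l * c := by
    intro c hc
    have := hD.le_centralizer l hl (Subgroup.mem_inf.mp hc).2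
    rw [Subgroup.mem_centralizer_singleton_iff] at this
    exact this
  -- coprime action
  have hex : ∀ h : K, ∃ x : K, ∃ c : ↥(K ⊓ H l),
      (x : G) * ((h : G) * l) * (x : G)⁻¹ = (c : G) * l := by
    intro h
    obtain ⟨x, hx, c, hc, hcl, hxc⟩ := Cfsg.Agent.S1496.result K l hlK hcopl (h : G) h.2
    exact ⟨⟨x, hx⟩, ⟨c, hKC c hc hcl⟩, hxc⟩
  choose X C hXC using hex
  -- fusion
  have hfus : ∀ k ∈ K, ∀ c c' : ↥(K ⊓ H l), k * ((c : G) * l) * k⁻¹ = (c' : G) * l →
      k ∈ K ⊓ H l := by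
    intro k hk c c' he
    apply hKC k hk
    have e1 : (c : G) * l = l * (c : G) := hCl c c.2
    have e2 : (c' : G) * l = l * (c' : G) := hCl c' c'.2
    rw [e1, e2] at he
    have := Cfsg.Agent.S1500.conj_A_part A L H hD l l hl hl (c : G) (c' : G)
      (Subgroup.mem_inf.mp c.2).2 (Subgroup.mem_inf.mp c'.2).2 k he
    calc k * l = k * l * k⁻¹ * k := by group
      _ = l * k := by rw [this]
  -- the map Φ
  have hΦmem : ∀ (k : K) (c : ↥(K ⊓ H l)), (k : G) * (c : G) * l * (k : G)⁻¹ * l⁻¹ ∈ K := by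
    intro k c
    have h1 : l * (k : G)⁻¹ * l⁻¹ ∈ K :=
      (Subgroup.mem_normalizer_iff.mp hlK _).mp (K.inv_mem k.2)
    have e : (k : G) * (c : G) * l * (k : G)⁻¹ * l⁻¹ = (k : G) * (c : G) * (l * (k : G)⁻¹ * l⁻¹) := by
      group
    rw [e]
    exact K.mul_mem (K.mul_mem k.2 (Subgroup.mem_inf.mp c.2).1) h1
  let Φ : K → ↥(K ⊓ H l) → K := fun k c => ⟨(k : G) * (c : G) * l * (k : G)⁻¹ * l⁻¹, hΦmem k c⟩
  have hΦ : ∀ k c, ((Φ k c : K) : G) * l = (k : G) * ((c : G) * l) * (k : G)⁻¹ := by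
    intro k c
    show (k : G) * (c : G) * l * (k : G)⁻¹ * l⁻¹ * l = _
    group
  have hΨmem : ∀ (k : K) (c : ↥(K ⊓ H l)), ((X (Φ k c) : K) : G) * (k : G) ∈ K ⊓ H l := by
    intro k c
    apply hfus _ (K.mul_mem (X (Φ k c)).2 k.2) c (C (Φ k c))
    rw [← hXC (Φ k c), hΦ k c]
    group
  let Ψ : K × ↥(K ⊓ H l) → K × ↥(K ⊓ H l) := fun p =>
    (Φ p.1 p.2, ⟨((X (Φ p.1 p.2) : K) : G) * (p.1 : G), hΨmem p.1 p.2⟩)
  have hΨinj : Function.Injective Ψ := by
    rintro ⟨k, c⟩ ⟨k', c'⟩ he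
    have h1 : Φ k c = Φ k' c' := congrArg Prod.fst he
    have h2 : ((X (Φ k c) : K) : G) * (k : G) = ((X (Φ k' c') : K) : G) * (k' : G) :=
      congrArg (fun p : K × ↥(K ⊓ H l) => ((p.2 : ↥(K ⊓ H l)) : G)) he
    rw [h1] at h2
    have hk : (k : G) = (k' : G) := mul_left_cancel h2
    have hk' : k = k' := Subtype.ext hk
    subst hk'
    have h3 : ((Φ k c : K) : G) * l = ((Φ k c' : K) : G) * l := by rw [h1]
    rw [hΦ, hΦ] at h3
    have h4 : (c : G) = (c' : G) := by
      have := mul_right_cancel (mul_left_cancel (mul_right_cancel h3))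
      exact this
    exact Prod.ext rfl (Subtype.ext h4)
  have hΨbij : Function.Bijective Ψ := Finite.injective_iff_bijective.mp hΨinj
  -- the two evaluations of the double sum
  have hsum1 : ∑ p : K × ↥(K ⊓ H l), χ (((Ψ p).1 : G) * l) =
      ∑ q : K × ↥(K ⊓ H l), χ ((q.1 : G) * l) :=
    Function.Bijective.sum_comp hΨbij (fun q : K × ↥(K ⊓ H l) => χ ((q.1 : G) * l))
  have hsum2 : ∑ p : K × ↥(K ⊓ H l), χ (((Ψ p).1 : G) * l) =
      ∑ p : K × ↥(K ⊓ H l), χ ((p.2 : G) * l) := by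
    apply Finset.sum_congr rfl
    rintro ⟨k, c⟩ _
    show χ (((Φ k c : K) : G) * l) = χ ((c : G) * l)
    rw [hΦ, hχ]
  rw [hsum2] at hsum1
  rw [Fintype.sum_prod_type, Fintype.sum_prod_type] at hsum1
  simp only [Finset.sum_const, Finset.card_univ, nsmul_eq_mul] at hsum1
  rw [← Finset.mul_sum] at hsum1
  rw [Nat.card_eq_fintype_card, Nat.card_eq_fintype_card]
  exact hsum1.symm

end Cfsg.Agent.Lib.Helper25.DadeAvg
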