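import Cfsg.Agent.Lib.Helper25.DadeSub
import Cfsg.Agent.Lib.CT.FrobRec
import Cfsg.Agent.Lib.CT.IndChar
import Cfsg.Agent.Lib.CT.Ops
import Cfsg.Agent.Lib.Helper3.Irr
import Cfsg.Agent.Lib.Helper26.GenChar
import Mathlib

/-!
Dade expansion: for a class function `α` of `L` supported on `A`, the Dade image of `α` is
`∑_B (-1)^(|B|+1) (|N_L(B)|/|L|) Ind_{M_B}^G (α ∘ π_B)`, the sum over the nonempty subsets `B ⊆ A`.
This file proves the inner product formula for the terms, their invariance under `L`-conjugation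
of `B`, the cancellation identity `key_K`, and the orbit lemma `orbit_sum`.
-/

set_option autoImplicit false
open Cfsg
open scoped ComplexConjugate

namespace Cfsg.Agent.Lib.Helper25.DadeExp

open Cfsg.Agent.Lib.Helper25.DadeAvg Cfsg.Agent.Lib.Helper25.DadeSub
open Cfsg.Agent.Lib.CT.FrobRec

variable {G : Type*} [Group G] [Fintype G] (A : Set G) (L : Subgroup G) (H : G → Subgroup G)

open Classical in
/-- the `B`-term of the expansion, paired with a class function `F` -/
noncomputable def T (α : L → ℂ) (B : Finset G) (F : G → ℂ) : ℂ :=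
  ((Nat.card (HB H B) : ℂ) * (Nat.card (NB L B) : ℂ))⁻¹ *
    ∑ l : G, ∑ h : G, if l ∈ NB L B ∧ h ∈ HB H B then extendByZero L α l * F (h * l) else 0

theorem inner_ind (hD : DadeHypothesis A L H) (B : Finset G) (hB : ∀ b ∈ B, b ∈ A)
    (hne : B.Nonempty) (π : ↥(MB L H B) →* ↥L)
    (hπ : ∀ m : ↥(MB L H B),
      ((π m : ↥L) : G) ∈ NB L B ∧ (m : G) * ((π m : ↥L) : G)⁻¹ ∈ HB H B)
    (α : L → ℂ) (χ : G → ℂ) (hχ : IsClassFunction G χ) :
    classInner (indFun (MB L H B) (fun m => α (π m))) χ = T L H α B (fun g => conj (χ g)) := by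
  classical
  unfold classInner T
  have hF : IsClassFunction G (fun g => conj (χ g)) := by
    intro g h
    simp only
    rw [hχ g h]
  rw [sum_indFun_mul (MB L H B) _ (fun g => conj (χ g)) hF]
  have hs := sum_MB L H A hD B hB hne π hπ (fun l m => extendByZero L α l * conj (χ m))
  simp only [extendByZero_apply_coe] at hs
  rw [hs, card_MB L H A hD B hB hne]
  have hG : (Nat.card G : ℂ) ≠ 0 := by exact_mod_cast Nat.card_pos.ne'
  field_simp

theorem T_cj (hD : DadeHypothesis A L H) (B : Finset G) (hB : ∀ b ∈ B, b ∈ A)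
    (α : L → ℂ) (hα : IsClassFunction L α) (F : G → ℂ) (hF : IsClassFunction G F) (x : G)
    (hx : x ∈ L) : T L H α (cj x B) F = T L H α B F := by
  classical
  unfold T
  rw [card_HB_cj L H A hD B hB x hx, card_NB_cj L B x hx]
  congr 1
  have key : ∀ l h : G, (if x * l * x⁻¹ ∈ NB L (cj x B) ∧ x * h * x⁻¹ ∈ HB H (cj x B) then
      extendByZero L α (x * l * x⁻¹) * F (x * h * x⁻¹ * (x * l * x⁻¹)) else 0) =
      (if l ∈ NB L B ∧ h ∈ HB H B then extendByZero L α l * F (h * l) else 0) := by
    intro l h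
    have e1 : x * l * x⁻¹ ∈ NB L (cj x B) ↔ l ∈ NB L B := by
      rw [mem_NB_cj L B x hx]
      have e : x⁻¹ * (x * l * x⁻¹) * x = l := by group
      rw [e]
    have e2 : x * h * x⁻¹ ∈ HB H (cj x B) ↔ h ∈ HB H B := by
      rw [mem_HB_cj L H A hD B hB x hx]
      have e : x⁻¹ * (x * h * x⁻¹) * x = h := by group
      rw [e]
    by_cases hc : l ∈ NB L B ∧ h ∈ HB H B
    · rw [if_pos hc, if_pos ⟨e1.mpr hc.1, e2.mpr hc.2⟩]
      have e3 : x * h * x⁻¹ * (x * l * x⁻¹) = x * (h * l) * x⁻¹ := by group
      rw [e3, hF]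
      congr 1
      have hl : l ∈ L := hc.1.1
      rw [extendByZero_apply_of_mem L α hl,
        extendByZero_apply_of_mem L α (L.mul_mem (L.mul_mem hx hl) (L.inv_mem hx))]
      exact hα ⟨l, hl⟩ ⟨x, hx⟩
    · rw [if_neg hc, if_neg (fun hc' => hc ⟨e1.mp hc'.1, e2.mp hc'.2⟩)]
  rw [← Equiv.sum_comp (MulAut.conj x).toEquiv]
  apply Finset.sum_congr rfl
  intro l _
  rw [← Equiv.sum_comp (MulAut.conj x).toEquiv]
  apply Finset.sum_congr rfl
  intro h _
  exact key l h

open Classical in
/-- the family of nonempty finite subsets of `A` -/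
noncomputable def X : Finset (Finset G) :=
  Finset.univ.filter (fun B => B.Nonempty ∧ ∀ b ∈ B, b ∈ A)

theorem mem_X {B : Finset G} : B ∈ X A ↔ B.Nonempty ∧ ∀ b ∈ B, b ∈ A := by
  classical
  simp [X]

theorem cj_mem_X (hD : DadeHypothesis A L H) {B : Finset G} (hB : B ∈ X A) (x : G) (hx : x ∈ L) :
    cj x B ∈ X A := by
  rw [mem_X] at hB ⊢
  refine ⟨cj_nonempty hB.1, ?_⟩
  intro b hb
  rw [mem_cj] at hb
  have := hD.conj_mem x hx _ (hB.2 _ hb)
  have e : x * (x⁻¹ * b * x) * x⁻¹ = b := by group
  rwa [e] at this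

open Classical in
/-- the average of `F` over `HB B * l` -/
noncomputable def avg (B : Finset G) (F : G → ℂ) (l : G) : ℂ :=
  (Nat.card (HB H B) : ℂ)⁻¹ * ∑ h : G, if h ∈ HB H B then F (h * l) else 0

open Classical in
/-- the signed term attached to `B` at `l` -/
noncomputable def W (F : G → ℂ) (l : G) (B : Finset G) : ℂ :=
  (-1 : ℂ) ^ (B.card + 1) * (if l ∈ NB L B then avg H B F l else 0)

open Classical in
/-- toggle the membership of `l` -/
noncomputable def tog (l : G) (B : Finset G) : Finset G :=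
  if l ∈ B then B.erase l else insert l B

theorem mem_tog {l y : G} {B : Finset G} : y ∈ tog l B ↔ (y ∈ B ↔ y ≠ l) := by
  classical
  unfold tog
  by_cases hl : l ∈ B
  · rw [if_pos hl, Finset.mem_erase]
    by_cases hy : y = l
    · subst hy; simp [hl]
    · simp [hy]
  · rw [if_neg hl, Finset.mem_insert]
    by_cases hy : y = l
    · subst hy; simp [hl]
    · simp [hy]

theorem tog_tog (l : G) (B : Finset G) : tog l (tog l B) = B := by
  ext y
  rw [mem_tog, mem_tog]
  by_cases hy : y = l
  · simp [hy]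
  · simp [hy]

theorem tog_ne (l : G) (B : Finset G) : tog l B ≠ B := by
  intro h
  have h1 : l ∈ tog l B ↔ (l ∈ B ↔ l ≠ l) := mem_tog
  rw [h] at h1
  simp at h1

open Classical in
theorem tog_of_not_mem {l : G} {B : Finset G} (h : l ∉ B) : tog l B = insert l B := by
  classical
  unfold tog
  rw [if_neg h]

theorem mem_NB_tog {l : G} {B : Finset G} (h : l ∈ NB L B) : l ∈ NB L (tog l B) := by
  refine ⟨h.1, ?_⟩
  ext y
  rw [mem_cj, mem_tog, mem_tog]
  have h1 : l⁻¹ * y * l ∈ B ↔ y ∈ B := by
    have h2 : y ∈ cj l B ↔ l⁻¹ * y * l ∈ B := mem_cj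
    rw [h.2] at h2
    exact h2.symm
  have h3 : l⁻¹ * y * l ≠ l ↔ y ≠ l := by
    constructor
    · intro hne hy
      apply hne
      rw [hy]; group
    · intro hne hy
      apply hne
      have : y = l * (l⁻¹ * y * l) * l⁻¹ := by group
      rw [this, hy]; group
  rw [h1, h3]

theorem mem_NB_tog_iff {l : G} {B : Finset G} : l ∈ NB L (tog l B) ↔ l ∈ NB L B := by
  constructor
  · intro h
    have := mem_NB_tog L h
    rwa [tog_tog] at this
  · exact mem_NB_tog L

open Classical in
theorem HB_insert (l : G) (B : Finset G) : HB H (insert l B) = HB H B ⊓ H l := by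
  classical
  ext x
  rw [Subgroup.mem_inf, mem_HB, mem_HB, Finset.forall_mem_insert]
  tauto

theorem HB_singleton (l : G) : HB H {l} = H l := by
  ext x
  rw [mem_HB]
  simp

theorem card_HB_ne_zero (B : Finset G) : (Nat.card (HB H B) : ℂ) ≠ 0 := by
  exact_mod_cast Nat.card_pos.ne'

open Classical in
theorem avg_insert (hD : DadeHypothesis A L H) (F : G → ℂ) (hF : IsClassFunction G F) (l : G)
    (hl : l ∈ A) (B : Finset G) (hB : B ∈ X A) (hlB : l ∈ NB L B) :
    avg H (insert l B) F l = avg H B F l := by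
  classical
  rw [mem_X] at hB
  have h := avg_lemma A L H hD l hl (HB H B) (NB_le_normalizer L H A hD B hB.2 hlB)
    (card_HB_coprime L H A hD B hB.2 hB.1 l hl) F hF
  unfold avg
  rw [HB_insert]
  have h1 := card_HB_ne_zero H B
  have h2 : (Nat.card ↥(HB H B ⊓ H l) : ℂ) ≠ 0 := by exact_mod_cast Nat.card_pos.ne'
  field_simp
  linear_combination -h

open Classical in
theorem W_pair_insert (hD : DadeHypothesis A L H) (F : G → ℂ) (hF : IsClassFunction G F) (l : G)
    (hl : l ∈ A) (B : Finset G) (hB : B ∈ X A) (hlB : l ∉ B) :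
    W L H F l B + W L H F l (insert l B) = 0 := by
  classical
  unfold W
  have hiff : l ∈ NB L (insert l B) ↔ l ∈ NB L B := by
    rw [← tog_of_not_mem hlB]
    exact mem_NB_tog_iff L
  by_cases hN : l ∈ NB L B
  · rw [if_pos hN, if_pos (hiff.mpr hN), avg_insert A L H hD F hF l hl B hB hN,
      Finset.card_insert_of_notMem hlB]
    ring
  · rw [if_neg hN, if_neg (fun hc => hN (hiff.mp hc))]
    ring

theorem W_pair (hD : DadeHypothesis A L H) (F : G → ℂ) (hF : IsClassFunction G F) (l : G)
    (hl : l ∈ A) (B : Finset G) (hB : B ∈ X A) (hne : B ≠ {l}) :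
    W L H F l B + W L H F l (tog l B) = 0 ∧ tog l B ∈ X A ∧ tog l B ≠ {l} := by
  classical
  by_cases hlB : l ∈ B
  · have hlB' : l ∉ tog l B := by
      rw [mem_tog]; simp [hlB]
    have hB' : tog l B ∈ X A := by
      rw [mem_X] at hB ⊢
      constructor
      · by_contra hemp
        rw [Finset.not_nonempty_iff_eq_empty] at hemp
        apply hne
        ext y
        have h1 : y ∈ tog l B ↔ (y ∈ B ↔ y ≠ l) := mem_tog
        rw [hemp] at h1
        rw [Finset.mem_singleton]
        constructor
        · intro hy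
          by_contra hyl
          exact (Finset.notMem_empty y) (h1.mpr ⟨fun _ => hyl, fun _ => hy⟩)
        · intro hy; rw [hy]; exact hlB
      · intro b hb
        rw [mem_tog] at hb
        by_cases hbl : b = l
        · rw [hbl]; exact hl
        · exact hB.2 b (hb.mpr hbl)
    refine ⟨?_, hB', ?_⟩
    · have h := W_pair_insert A L H hD F hF l hl (tog l B) hB' hlB'
      rw [← tog_of_not_mem hlB', tog_tog] at h
      rw [add_comm]; exact h
    · intro h
      apply hlB'
      rw [h]; exact Finset.mem_singleton_self l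
  · have hB' : tog l B ∈ X A := by
      rw [tog_of_not_mem hlB]
      rw [mem_X] at hB ⊢
      refine ⟨Finset.insert_nonempty l B, ?_⟩
      intro b hb
      rw [Finset.mem_insert] at hb
      rcases hb with rfl | hb
      · exact hl
      · exact hB.2 b hb
    refine ⟨?_, hB', ?_⟩
    · rw [tog_of_not_mem hlB]
      exact W_pair_insert A L H hD F hF l hl B hB hlB
    · intro h
      rw [mem_X] at hB
      obtain ⟨b, hb⟩ := hB.1
      have hb' : b ∈ tog l B := by
        rw [mem_tog]
        constructor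
        · intro _ hbl; rw [hbl] at hb; exact hlB hb
        · intro _; exact hb
      rw [h, Finset.mem_singleton] at hb'
      rw [hb'] at hb
      exact hlB hb

open Classical in
/-- the cancellation identity -/
theorem key_K (hD : DadeHypothesis A L H) (F : G → ℂ) (hF : IsClassFunction G F) (l : G)
    (hl : l ∈ A) :
    ∑ B ∈ X A, W L H F l B =
      (Nat.card (H l) : ℂ)⁻¹ * ∑ u : G, if u ∈ H l then F (l * u) else 0 := by
  have hmem : ({l} : Finset G) ∈ X A := by
    rw [mem_X]
    refine ⟨Finset.singleton_nonempty l, ?_⟩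
    intro b hb
    rw [Finset.mem_singleton] at hb
    rw [hb]; exact hl
  rw [← Finset.add_sum_erase (X A) (W L H F l) hmem]
  have h0 : ∑ B ∈ (X A).erase {l}, W L H F l B = 0 := by
    apply Finset.sum_involution (fun B _ => tog l B)
    · intro B hB
      rw [Finset.mem_erase] at hB
      exact (W_pair A L H hD F hF l hl B hB.2 hB.1).1
    · intro B _ _
      exact tog_ne l B
    · intro B hB
      rw [Finset.mem_erase] at hB ⊢
      have := W_pair A L H hD F hF l hl B hB.2 hB.1
      exact ⟨this.2.2, this.2.1⟩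
    · intro B _
      exact tog_tog l B
  rw [h0, add_zero]
  unfold W avg
  have hN : l ∈ NB L {l} := by
    refine ⟨hD.subset hl, ?_⟩
    ext y
    rw [mem_cj, Finset.mem_singleton, Finset.mem_singleton]
    constructor
    · intro h
      have : y = l * (l⁻¹ * y * l) * l⁻¹ := by group
      rw [this, h]; group
    · intro h; rw [h]; group
  rw [if_pos hN, HB_singleton, Finset.card_singleton]
  have e : ∀ h : G, F (h * l) = F (l * h) := by
    intro h
    have := hF (h * l) l
    have e' : l * (h * l) * l⁻¹ = l * h := by group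
    rw [e'] at this
    exact this.symm
  simp only [e]
  ring

end Cfsg.Agent.Lib.Helper25.DadeExp
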