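import Cfsg.Agent.Lib.Helper25.DadeExp
import Mathlib

/-!
Dade expansion, second part: the orbit lemma, the induced functions `indB`, and the function
`theta` with `theta_genChar` (it is a generalized character) and `inner_theta` (its inner product
with a class function).
-/

set_option autoImplicit false
open Cfsg
open scoped ComplexConjugate

namespace Cfsg.Agent.Lib.Helper25.DadeExp2

open Cfsg.Agent.Lib.Helper25.DadeAvg Cfsg.Agent.Lib.Helper25.DadeSub
open Cfsg.Agent.Lib.Helper25.DadeExp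
open Cfsg.Agent.Lib.CT.FrobRec Cfsg.Agent.Lib.Helper26.GenChar Cfsg.Agent.Lib.Helper3.Irr

variable {G : Type*} [Group G] [Fintype G] (A : Set G) (L : Subgroup G) (H : G → Subgroup G)

/-- conjugation action of `L` on finite subsets -/
noncomputable def act : MulAction ↥L (Finset G) where
  smul l B := cj (l : G) B
  one_smul B := cj_one B
  mul_smul l l' B := cj_mul (l : G) (l' : G) B

open Classical in
/-- the `L`-orbit of `B` -/
noncomputable def O (B : Finset G) : Finset (Finset G) :=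
  Finset.univ.image (fun x : ↥L => cj (x : G) B)

theorem mem_O {B S : Finset G} : S ∈ O L B ↔ ∃ x ∈ L, cj x B = S := by
  classical
  unfold O
  rw [Finset.mem_image]
  constructor
  · rintro ⟨x, _, hx⟩; exact ⟨x, x.2, hx⟩
  · rintro ⟨x, hx, h⟩; exact ⟨⟨x, hx⟩, Finset.mem_univ _, h⟩

theorem self_mem_O (B : Finset G) : B ∈ O L B := (mem_O L).mpr ⟨1, L.one_mem, cj_one B⟩

theorem O_cj (B : Finset G) (x : G) (hx : x ∈ L) : O L (cj x B) = O L B := by
  ext S
  rw [mem_O, mem_O]
  constructor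
  · rintro ⟨y, hy, h⟩
    exact ⟨y * x, L.mul_mem hy hx, by rw [cj_mul]; exact h⟩
  · rintro ⟨y, hy, h⟩
    refine ⟨y * x⁻¹, L.mul_mem hy (L.inv_mem hx), ?_⟩
    rw [← cj_mul]
    have e : y * x⁻¹ * x = y := by group
    rw [e]; exact h

theorem card_O (B : Finset G) : (O L B).card * Nat.card (NB L B) = Nat.card L := by
  classical
  letI := act L
  have h1 : Nat.card (MulAction.orbit ↥L B) = (O L B).card := by
    rw [← Set.ncard_coe_finset (O L B), ← Nat.card_coe_set_eq]
    have : MulAction.orbit ↥L B = ((O L B : Finset (Finset G)) : Set (Finset G)) := by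
      ext S
      rw [MulAction.mem_orbit_iff, Finset.mem_coe, mem_O]
      constructor
      · rintro ⟨x, hx⟩; exact ⟨x, x.2, hx⟩
      · rintro ⟨x, hx, h⟩; exact ⟨⟨x, hx⟩, h⟩
    rw [this]
  have h2 : Nat.card (MulAction.stabilizer ↥L B) = Nat.card (NB L B) := by
    have : MulAction.stabilizer ↥L B = (NB L B).subgroupOf L := by
      ext x
      rw [MulAction.mem_stabilizer_iff, Subgroup.mem_subgroupOf, mem_NB]
      constructor
      · intro h; exact ⟨x.2, h⟩
      · intro h; exact h.2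
    rw [this]
    exact Nat.card_congr (Subgroup.subgroupOfEquivOfLe (NB_le L B)).toEquiv
  have h3 := Nat.card_congr (MulAction.orbitProdStabilizerEquivGroup ↥L B)
  rw [Nat.card_prod, h1, h2] at h3
  exact h3

theorem genChar_sum {ι : Type*} (s : Finset ι) (f : ι → G → ℂ)
    (h : ∀ i ∈ s, IsGeneralizedCharacter G (f i)) : IsGeneralizedCharacter G (∑ i ∈ s, f i) := by
  classical
  induction s using Finset.induction_on with
  | empty => simpa using isGeneralizedCharacter_zero
  | insert a s ha ih =>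
    rw [Finset.sum_insert ha]
    exact isGeneralizedCharacter_add (h a (Finset.mem_insert_self a s))
      (ih (fun i hi => h i (Finset.mem_insert_of_mem hi)))

/-- the orbit lemma -/
theorem orbit_sum (hD : DadeHypothesis A L H) (Fn : Finset G → G → ℂ)
    (hgc : ∀ B ∈ X A, IsGeneralizedCharacter G (Fn B))
    (hinv : ∀ B ∈ X A, ∀ x ∈ L, Fn (cj x B) = Fn B) (ε : Finset G → ℤ)
    (hε : ∀ B, ∀ x : G, ε (cj x B) = ε B) :
    IsGeneralizedCharacter G (∑ B ∈ X A,
      (((ε B : ℤ) : ℂ) * (Nat.card (NB L B) : ℂ) / (Nat.card L : ℂ)) • Fn B) := by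
  classical
  have hsum := (Finset.sum_image' (s := X A) (g := O L)
    (f := fun S => ∑ B ∈ X A with O L B = S,
      (((ε B : ℤ) : ℂ) * (Nat.card (NB L B) : ℂ) / (Nat.card L : ℂ)) • Fn B)
    (fun B => (((ε B : ℤ) : ℂ) * (Nat.card (NB L B) : ℂ) / (Nat.card L : ℂ)) • Fn B)
    (fun i _ => rfl)).symm
  rw [hsum]
  apply genChar_sum
  intro S hS
  rw [Finset.mem_image] at hS
  obtain ⟨B₀, hB₀, rfl⟩ := hS
  have hfil : (X A).filter (fun B => O L B = O L B₀) = O L B₀ := by
    ext B
    rw [Finset.mem_filter]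
    constructor
    · rintro ⟨_, h⟩
      rw [← h]; exact self_mem_O L B
    · intro h
      obtain ⟨x, hx, rfl⟩ := (mem_O L).mp h
      exact ⟨cj_mem_X A L H hD hB₀ x hx, O_cj L B₀ x hx⟩
  show IsGeneralizedCharacter G (∑ B ∈ (X A).filter (fun B => O L B = O L B₀),
      (((ε B : ℤ) : ℂ) * (Nat.card (NB L B) : ℂ) / (Nat.card L : ℂ)) • Fn B)
  rw [hfil]
  have hconst : ∀ B ∈ O L B₀, (((ε B : ℤ) : ℂ) * (Nat.card (NB L B) : ℂ) / (Nat.card L : ℂ)) • Fn B =
      (((ε B₀ : ℤ) : ℂ) * (Nat.card (NB L B₀) : ℂ) / (Nat.card L : ℂ)) • Fn B₀ := by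
    intro B hB
    obtain ⟨x, hx, rfl⟩ := (mem_O L).mp hB
    rw [hε, card_NB_cj L B₀ x hx, hinv B₀ hB₀ x hx]
  rw [Finset.sum_congr rfl hconst, Finset.sum_const, ← Nat.cast_smul_eq_nsmul ℂ, smul_smul]
  have hL : (Nat.card L : ℂ) ≠ 0 := by exact_mod_cast Nat.card_pos.ne'
  have hcard : (((O L B₀).card : ℂ)) * (Nat.card (NB L B₀) : ℂ) = (Nat.card L : ℂ) := by
    exact_mod_cast card_O L B₀
  have hcoef : ((O L B₀).card : ℂ) * (((ε B₀ : ℤ) : ℂ) * (Nat.card (NB L B₀) : ℂ) / (Nat.card L : ℂ)) =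
      ((ε B₀ : ℤ) : ℂ) := by
    field_simp
    linear_combination ((ε B₀ : ℤ) : ℂ) * hcard
  rw [hcoef, Int.cast_smul_eq_zsmul]
  exact isGeneralizedCharacter_zsmul (hgc B₀ hB₀) _

open Classical in
/-- a choice of projection `MB B → L` -/
noncomputable def P (hD : DadeHypothesis A L H) (B : Finset G) : ↥(MB L H B) →* ↥L :=
  if h : B.Nonempty ∧ ∀ b ∈ B, b ∈ A then Classical.choose (exists_proj L H A hD B h.2 h.1)
  else 1

theorem P_spec (hD : DadeHypothesis A L H) (B : Finset G) (hB : B ∈ X A) (m : ↥(MB L H B)) :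
    ((P A L H hD B m : ↥L) : G) ∈ NB L B ∧
      (m : G) * ((P A L H hD B m : ↥L) : G)⁻¹ ∈ HB H B := by
  classical
  rw [mem_X] at hB
  unfold P
  rw [dif_pos hB]
  exact Classical.choose_spec (exists_proj L H A hD B hB.2 hB.1) m

/-- the induced function attached to `B` -/
noncomputable def indB (hD : DadeHypothesis A L H) (α : L → ℂ) (B : Finset G) : G → ℂ :=
  indFun (MB L H B) (fun m => α (P A L H hD B m))

theorem inner_indB (hD : DadeHypothesis A L H) (α : L → ℂ) (B : Finset G) (hB : B ∈ X A)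
    (χ : G → ℂ) (hχ : IsClassFunction G χ) :
    classInner (indB A L H hD α B) χ = T L H α B (fun g => conj (χ g)) :=
  inner_ind A L H hD B ((mem_X A).mp hB).2 ((mem_X A).mp hB).1 (P A L H hD B)
    (P_spec A L H hD B hB) α χ hχ

theorem indB_class (hD : DadeHypothesis A L H) (α : L → ℂ) (B : Finset G) :
    IsClassFunction G (indB A L H hD α B) :=
  indFun_isClassFunction _ _

theorem indB_cj (hD : DadeHypothesis A L H) (α : L → ℂ) (hα : IsClassFunction L α)
    (B : Finset G) (hB : B ∈ X A) (x : G) (hx : x ∈ L) :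
    indB A L H hD α (cj x B) = indB A L H hD α B := by
  have hB' : cj x B ∈ X A := cj_mem_X A L H hD hB x hx
  obtain ⟨d, hd⟩ : ∃ d : G → ℂ, d = indB A L H hD α (cj x B) - indB A L H hD α B := ⟨_, rfl⟩
  have hdc : IsClassFunction G d := by
    intro g h
    rw [hd]
    simp only [Pi.sub_apply]
    rw [indB_class A L H hD α (cj x B) g h, indB_class A L H hD α B g h]
  have hF : IsClassFunction G (fun g => conj (d g)) := by
    intro g h
    simp only
    rw [hdc g h]
  have h1 := classInner_sub_left (indB A L H hD α (cj x B)) (indB A L H hD α B) d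
  rw [← hd] at h1
  rw [inner_indB A L H hD α (cj x B) hB' d hdc, inner_indB A L H hD α B hB d hdc,
    T_cj A L H hD B ((mem_X A).mp hB).2 α hα _ hF x hx, sub_self] at h1
  have := eq_zero_of_classInner_self_eq_zero h1
  rw [hd] at this
  exact sub_eq_zero.mp this

theorem indB_genChar (hD : DadeHypothesis A L H) (α : L → ℂ) (hα : IsGeneralizedCharacter L α)
    (B : Finset G) : IsGeneralizedCharacter G (indB A L H hD α B) := by
  obtain ⟨χ₁, χ₂, h1, h2, rfl⟩ := hα
  have e : (fun m : ↥(MB L H B) => (χ₁ - χ₂) (P A L H hD B m)) =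
      (fun m => χ₁ (P A L H hD B m)) - (fun m => χ₂ (P A L H hD B m)) := by
    funext m; simp
  unfold indB
  rw [e, indFun_sub]
  exact ⟨_, _, Cfsg.Agent.Lib.CT.IndChar.isCharacter_indFun _ _
      (Cfsg.Agent.Lib.CT.Ops.isCharacter_comp_hom (P A L H hD B) h1),
    Cfsg.Agent.Lib.CT.IndChar.isCharacter_indFun _ _
      (Cfsg.Agent.Lib.CT.Ops.isCharacter_comp_hom (P A L H hD B) h2), rfl⟩

/-- the Dade expansion -/
noncomputable def theta (hD : DadeHypothesis A L H) (α : L → ℂ) : G → ℂ :=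
  ∑ B ∈ X A, ((((-1 : ℤ) ^ (B.card + 1) : ℤ) : ℂ) * (Nat.card (NB L B) : ℂ) /
    (Nat.card L : ℂ)) • indB A L H hD α B

theorem theta_genChar (hD : DadeHypothesis A L H) (α : L → ℂ)
    (hα : IsGeneralizedCharacter L α) (hαc : IsClassFunction L α) :
    IsGeneralizedCharacter G (theta A L H hD α) :=
  orbit_sum A L H hD (indB A L H hD α) (fun B _ => indB_genChar A L H hD α hα B)
    (fun B hB x hx => indB_cj A L H hD α hαc B hB x hx) (fun B => (-1) ^ (B.card + 1))
    (fun B x => by rw [card_cj])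

open Classical in
theorem inner_theta (hD : DadeHypothesis A L H) (α : L → ℂ)
    (hαA : ∀ x : L, (x : G) ∉ A → α x = 0) (χ : G → ℂ) (hχ : IsClassFunction G χ) :
    classInner (theta A L H hD α) χ = (Nat.card L : ℂ)⁻¹ * ∑ l : G, extendByZero L α l *
      ((Nat.card (H l) : ℂ)⁻¹ * ∑ u : G, if u ∈ H l then conj (χ (l * u)) else 0) := by
  unfold theta
  rw [classInner_sum_left]
  have hF : IsClassFunction G (fun g => conj (χ g)) := by
    intro g h
    simp only
    rw [hχ g h]
  have hL : (Nat.card L : ℂ) ≠ 0 := by exact_mod_cast Nat.card_pos.ne'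
  have hterm : ∀ B ∈ X A, classInner (((((-1 : ℤ) ^ (B.card + 1) : ℤ) : ℂ) *
      (Nat.card (NB L B) : ℂ) / (Nat.card L : ℂ)) • indB A L H hD α B) χ =
      (Nat.card L : ℂ)⁻¹ * ∑ l : G, extendByZero L α l * W L H (fun g => conj (χ g)) l B := by
    intro B hB
    rw [classInner_smul_left, inner_indB A L H hD α B hB χ hχ]
    unfold T W avg
    have h1 : ∀ l : G, ∑ h : G, (if l ∈ NB L B ∧ h ∈ HB H B then
        extendByZero L α l * conj (χ (h * l)) else 0) =
        extendByZero L α l * (if l ∈ NB L B then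
          ∑ h : G, (if h ∈ HB H B then conj (χ (h * l)) else 0) else 0) := by
      intro l
      by_cases hl : l ∈ NB L B
      · rw [if_pos hl, Finset.mul_sum]
        apply Finset.sum_congr rfl
        intro h _
        by_cases hh : h ∈ HB H B
        · rw [if_pos ⟨hl, hh⟩, if_pos hh]
        · rw [if_neg (fun hc => hh hc.2), if_neg hh, mul_zero]
      · rw [if_neg hl, mul_zero]
        apply Finset.sum_eq_zero
        intro h _
        rw [if_neg (fun hc => hl hc.1)]
    rw [Finset.sum_congr rfl (fun l _ => h1 l)]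
    have hHB : (Nat.card (HB H B) : ℂ) ≠ 0 := card_HB_ne_zero H B
    have hNB : (Nat.card (NB L B) : ℂ) ≠ 0 := by exact_mod_cast Nat.card_pos.ne'
    have h2 : ∀ l : G, (((-1 : ℤ) ^ (B.card + 1) : ℤ) : ℂ) * (Nat.card (NB L B) : ℂ) /
        (Nat.card L : ℂ) * ((Nat.card (HB H B) : ℂ) * (Nat.card (NB L B) : ℂ))⁻¹ *
        (extendByZero L α l * (if l ∈ NB L B then
          ∑ h : G, (if h ∈ HB H B then conj (χ (h * l)) else 0) else 0)) =
        (Nat.card L : ℂ)⁻¹ * (extendByZero L α l * ((-1 : ℂ) ^ (B.card + 1) *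
          (if l ∈ NB L B then (Nat.card (HB H B) : ℂ)⁻¹ *
            ∑ h : G, (if h ∈ HB H B then conj (χ (h * l)) else 0) else 0))) := by
      intro l
      by_cases hl : l ∈ NB L B
      · rw [if_pos hl, if_pos hl]
        push_cast
        field_simp
      · rw [if_neg hl, if_neg hl]
        ring
    rw [← mul_assoc, Finset.mul_sum, Finset.mul_sum]
    exact Finset.sum_congr rfl (fun l _ => h2 l)
  rw [Finset.sum_congr rfl hterm, ← Finset.mul_sum, Finset.sum_comm]
  congr 1
  apply Finset.sum_congr rfl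
  intro l _
  rw [← Finset.mul_sum]
  by_cases hl : l ∈ A
  · rw [key_K A L H hD _ hF l hl]
  · have : extendByZero L α l = 0 := by
      by_cases hlL : l ∈ L
      · rw [extendByZero_apply_of_mem L α hlL]; exact hαA ⟨l, hlL⟩ hl
      · exact extendByZero_apply_of_not_mem L α hlL
    rw [this, zero_mul, zero_mul]

end Cfsg.Agent.Lib.Helper25.DadeExp2
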