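import Cfsg.Agent.Lib.Helper25.DadeAvg
import Mathlib

/-!
Dade set-up: for a finite subset `B` of `A`, the subgroups `HB B = ⋂_{b ∈ B} H b`,
`NB B = N_L(B)` and `MB B = HB B ⋊ NB B`, the projection `MB B → L`, and the lift of a
function on `L` to `MB B`.
-/

set_option autoImplicit false
open Cfsg

namespace Cfsg.Agent.Lib.Helper25.DadeSub

open Cfsg.Agent.Lib.Helper25.DadeAvg

variable {G : Type*} [Group G]

open Classical in
/-- conjugate of a finite set -/
noncomputable def cj (l : G) (B : Finset G) : Finset G := B.image (fun b => l * b * l⁻¹)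

theorem mem_cj {l x : G} {B : Finset G} : x ∈ cj l B ↔ l⁻¹ * x * l ∈ B := by
  classical
  unfold cj
  rw [Finset.mem_image]
  constructor
  · rintro ⟨b, hb, rfl⟩
    have e : l⁻¹ * (l * b * l⁻¹) * l = b := by group
    rw [e]; exact hb
  · intro h
    exact ⟨l⁻¹ * x * l, h, by group⟩

theorem conj_mem_cj {l b : G} {B : Finset G} (hb : b ∈ B) : l * b * l⁻¹ ∈ cj l B := by
  rw [mem_cj]
  have e : l⁻¹ * (l * b * l⁻¹) * l = b := by group
  rw [e]; exact hb

theorem cj_one (B : Finset G) : cj 1 B = B := by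
  ext x; rw [mem_cj]; simp

theorem cj_mul (l l' : G) (B : Finset G) : cj (l * l') B = cj l (cj l' B) := by
  ext x
  rw [mem_cj, mem_cj, mem_cj]
  have e : (l * l')⁻¹ * x * (l * l') = l'⁻¹ * (l⁻¹ * x * l) * l' := by group
  rw [e]

theorem card_cj (l : G) (B : Finset G) : (cj l B).card = B.card := by
  classical
  unfold cj
  apply Finset.card_image_of_injective
  intro a b h
  simpa using h

theorem cj_nonempty {l : G} {B : Finset G} (h : B.Nonempty) : (cj l B).Nonempty := by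
  rw [← Finset.card_pos] at h ⊢
  rwa [card_cj]

variable (L : Subgroup G) (H : G → Subgroup G)

/-- `⋂_{b ∈ B} H b` -/
def HB (B : Finset G) : Subgroup G := ⨅ b ∈ B, H b

theorem mem_HB {B : Finset G} {x : G} : x ∈ HB H B ↔ ∀ b ∈ B, x ∈ H b := by
  simp [HB, Subgroup.mem_iInf]

/-- `N_L(B)` -/
def NB (B : Finset G) : Subgroup G where
  carrier := {l | l ∈ L ∧ cj l B = B}
  mul_mem' := by
    rintro a b ⟨ha, ha'⟩ ⟨hb, hb'⟩
    exact ⟨L.mul_mem ha hb, by rw [cj_mul, hb', ha']⟩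
  one_mem' := ⟨L.one_mem, cj_one B⟩
  inv_mem' := by
    rintro a ⟨ha, ha'⟩
    refine ⟨L.inv_mem ha, ?_⟩
    have h := cj_mul a⁻¹ a B
    rw [inv_mul_cancel, cj_one, ha'] at h
    exact h.symm

theorem mem_NB {B : Finset G} {l : G} : l ∈ NB L B ↔ l ∈ L ∧ cj l B = B := Iff.rfl

theorem NB_le (B : Finset G) : NB L B ≤ L := fun _ h => h.1

theorem NB_conj_mem {B : Finset G} {l b : G} (hl : l ∈ NB L B) (hb : b ∈ B) :
    l * b * l⁻¹ ∈ B := by
  have := conj_mem_cj (l := l) hb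
  rwa [hl.2] at this

/-- `HB B ⋊ NB B` -/
def MB (B : Finset G) : Subgroup G := HB H B ⊔ NB L B

variable [Fintype G] (A : Set G)

theorem conj_mem_HB (hD : DadeHypothesis A L H) (B : Finset G) (hB : ∀ b ∈ B, b ∈ A) (l : G)
    (hl : l ∈ NB L B) (h : G) (hh : h ∈ HB H B) : l * h * l⁻¹ ∈ HB H B := by
  rw [mem_HB] at hh ⊢
  intro b hb
  have hb' : l⁻¹ * b * l ∈ B := by
    have := NB_conj_mem L ((NB L B).inv_mem hl) hb
    simpa using this
  have h1 := Cfsg.Agent.S1498.conj_mem_aux A L H hD (l⁻¹ * b * l) (hB _ hb') l hl.1 h (hh _ hb')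
  have e : l * (l⁻¹ * b * l) * l⁻¹ = b := by group
  rwa [e] at h1

theorem NB_le_normalizer (hD : DadeHypothesis A L H) (B : Finset G) (hB : ∀ b ∈ B, b ∈ A) :
    NB L B ≤ Subgroup.normalizer ((HB H B : Subgroup G) : Set G) := by
  intro l hl
  rw [Subgroup.mem_normalizer_iff]
  intro h
  constructor
  · exact conj_mem_HB L H A hD B hB l hl h
  · intro hh
    have := conj_mem_HB L H A hD B hB l⁻¹ ((NB L B).inv_mem hl) _ hh
    have e : l⁻¹ * (l * h * l⁻¹) * l⁻¹⁻¹ = h := by group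
    rwa [e] at this

theorem HB_inf_L (hD : DadeHypothesis A L H) (B : Finset G) (hB : ∀ b ∈ B, b ∈ A)
    (hne : B.Nonempty) (x : G) (hx : x ∈ HB H B) (hxL : x ∈ L) : x = 1 := by
  obtain ⟨b, hb⟩ := hne
  have h1 : x ∈ H b := (mem_HB H).mp hx b hb
  have h2 : x ∈ H b ⊓ (L ⊓ Subgroup.centralizer ({b} : Set G)) :=
    Subgroup.mem_inf.mpr ⟨h1, Subgroup.mem_inf.mpr ⟨hxL, hD.le_centralizer b (hB b hb) h1⟩⟩
  rw [hD.inf_eq_bot b (hB b hb), Subgroup.mem_bot] at h2
  exact h2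

theorem card_HB_coprime (hD : DadeHypothesis A L H) (B : Finset G) (hB : ∀ b ∈ B, b ∈ A)
    (hne : B.Nonempty) (a : G) (ha : a ∈ A) :
    Nat.Coprime (Nat.card (HB H B)) (Nat.card ↥(L ⊓ Subgroup.centralizer ({a} : Set G))) := by
  obtain ⟨b, hb⟩ := hne
  have hle : HB H B ≤ H b := fun x hx => (mem_HB H).mp hx b hb
  exact (hD.coprime b (hB b hb) a ha).coprime_dvd_left (Subgroup.card_dvd_of_le hle)

theorem mem_MB (hD : DadeHypothesis A L H) (B : Finset G) (hB : ∀ b ∈ B, b ∈ A) (m : G) :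
    m ∈ MB L H B ↔ ∃ h ∈ HB H B, ∃ l ∈ NB L B, h * l = m := by
  have h := Subgroup.coe_mul_of_right_le_normalizer_left (HB H B) (NB L B)
    (NB_le_normalizer L H A hD B hB)
  unfold MB
  rw [← SetLike.mem_coe, h, Set.mem_mul]
  rfl

/-- uniqueness of the decomposition -/
theorem decomp_unique (hD : DadeHypothesis A L H) (B : Finset G) (hB : ∀ b ∈ B, b ∈ A)
    (hne : B.Nonempty) (m l l' : G) (hl : l ∈ NB L B) (hl' : l' ∈ NB L B)
    (h : m * l⁻¹ ∈ HB H B) (h' : m * l'⁻¹ ∈ HB H B) : l = l' := by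
  have h1 : (m * l'⁻¹)⁻¹ * (m * l⁻¹) ∈ HB H B := (HB H B).mul_mem ((HB H B).inv_mem h') h
  have e : (m * l'⁻¹)⁻¹ * (m * l⁻¹) = l' * l⁻¹ := by group
  rw [e] at h1
  have h2 := HB_inf_L L H A hD B hB hne _ h1 (L.mul_mem hl'.1 (L.inv_mem hl.1))
  exact (mul_inv_eq_one.mp h2).symm

/-- the projection `MB B → L` -/
theorem exists_proj (hD : DadeHypothesis A L H) (B : Finset G) (hB : ∀ b ∈ B, b ∈ A)
    (hne : B.Nonempty) :
    ∃ π : ↥(MB L H B) →* ↥L, ∀ m : ↥(MB L H B),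
      ((π m : ↥L) : G) ∈ NB L B ∧ (m : G) * ((π m : ↥L) : G)⁻¹ ∈ HB H B := by
  have hex : ∀ m : ↥(MB L H B), ∃ l : ↥L, (l : G) ∈ NB L B ∧ (m : G) * (l : G)⁻¹ ∈ HB H B := by
    intro m
    obtain ⟨h, hh, l, hl, hm⟩ := (mem_MB L H A hD B hB m).mp m.2
    refine ⟨⟨l, hl.1⟩, hl, ?_⟩
    rw [← hm]
    simpa using hh
  choose f hf1 hf2 using hex
  refine ⟨MonoidHom.mk' f ?_, fun m => ⟨hf1 m, hf2 m⟩⟩
  intro m m'
  apply Subtype.ext
  apply decomp_unique L H A hD B hB hne ((m * m' : ↥(MB L H B)) : G)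
  · exact hf1 _
  · exact (NB L B).mul_mem (hf1 m) (hf1 m')
  · exact hf2 _
  · have e : ((m * m' : ↥(MB L H B)) : G) * (((f m * f m' : ↥L)) : G)⁻¹ =
        ((m : G) * (f m : G)⁻¹) * ((f m : G) * ((m' : G) * (f m' : G)⁻¹) * (f m : G)⁻¹) := by
      simp only [Subgroup.coe_mul]
      group
    rw [e]
    exact (HB H B).mul_mem (hf2 m) (conj_mem_HB L H A hD B hB _ (hf1 m) _ (hf2 m'))

/-- membership in `HB` of a conjugated set -/
theorem mem_HB_cj (hD : DadeHypothesis A L H) (B : Finset G) (hB : ∀ b ∈ B, b ∈ A) (x : G)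
    (hx : x ∈ L) (h : G) : h ∈ HB H (cj x B) ↔ x⁻¹ * h * x ∈ HB H B := by
  rw [mem_HB, mem_HB]
  constructor
  · intro hh b hb
    have h1 := hh _ (conj_mem_cj (l := x) hb)
    have h2 := Cfsg.Agent.S1498.conj_mem_aux A L H hD (x * b * x⁻¹) (hD.conj_mem x hx b (hB b hb))
      x⁻¹ (L.inv_mem hx) h h1
    have e : x⁻¹ * (x * b * x⁻¹) * x⁻¹⁻¹ = b := by group
    rw [e, inv_inv] at h2
    exact h2
  · intro hh b hb
    rw [mem_cj] at hb
    have h2 := Cfsg.Agent.S1498.conj_mem_aux A L H hD (x⁻¹ * b * x) (hB _ hb) x hx _ (hh _ hb)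
    have e : x * (x⁻¹ * b * x) * x⁻¹ = b := by group
    have e' : x * (x⁻¹ * h * x) * x⁻¹ = h := by group
    rw [e, e'] at h2
    exact h2

/-- membership in `NB` of a conjugated set -/
theorem mem_NB_cj (B : Finset G) (x : G) (hx : x ∈ L) (l : G) :
    l ∈ NB L (cj x B) ↔ x⁻¹ * l * x ∈ NB L B := by
  rw [mem_NB, mem_NB]
  have hL : l ∈ L ↔ x⁻¹ * l * x ∈ L := by
    constructor
    · intro h; exact L.mul_mem (L.mul_mem (L.inv_mem hx) h) hx
    · intro h
      have := L.mul_mem (L.mul_mem hx h) (L.inv_mem hx)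
      have e : x * (x⁻¹ * l * x) * x⁻¹ = l := by group
      rwa [e] at this
  have hc : cj l (cj x B) = cj x B ↔ cj (x⁻¹ * l * x) B = B := by
    rw [← cj_mul]
    constructor
    · intro h
      have h' := congrArg (cj x⁻¹) h
      rw [← cj_mul, ← cj_mul, inv_mul_cancel, cj_one] at h'
      have e : x⁻¹ * (l * x) = x⁻¹ * l * x := by group
      rwa [e] at h'
    · intro h
      have h' := congrArg (cj x) h
      rw [← cj_mul] at h'
      have e : x * (x⁻¹ * l * x) = l * x := by group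
      rwa [e] at h'
  rw [hL, hc]

theorem card_HB_cj (hD : DadeHypothesis A L H) (B : Finset G) (hB : ∀ b ∈ B, b ∈ A) (x : G)
    (hx : x ∈ L) : Nat.card (HB H (cj x B)) = Nat.card (HB H B) :=
  Nat.card_congr (Equiv.subtypeEquiv (MulAut.conj x⁻¹).toEquiv (fun h => by
    have := mem_HB_cj L H A hD B hB x hx h
    simpa using this))

theorem card_NB_cj (B : Finset G) (x : G) (hx : x ∈ L) :
    Nat.card (NB L (cj x B)) = Nat.card (NB L B) :=
  Nat.card_congr (Equiv.subtypeEquiv (MulAut.conj x⁻¹).toEquiv (fun l => by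
    have := mem_NB_cj L B x hx l
    simpa using this))

open Classical in
/-- summation over `MB B` as a double sum over `NB B` and `HB B` -/
theorem sum_MB (hD : DadeHypothesis A L H) (B : Finset G) (hB : ∀ b ∈ B, b ∈ A)
    (hne : B.Nonempty) (π : ↥(MB L H B) →* ↥L)
    (hπ : ∀ m : ↥(MB L H B),
      ((π m : ↥L) : G) ∈ NB L B ∧ (m : G) * ((π m : ↥L) : G)⁻¹ ∈ HB H B)
    (f : G → G → ℂ) :
    ∑ m : ↥(MB L H B), f ((π m : ↥L) : G) (m : G) =
      ∑ l : G, ∑ h : G, if l ∈ NB L B ∧ h ∈ HB H B then f l (h * l) else 0 := by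
  have h1 : ∀ m : ↥(MB L H B), f ((π m : ↥L) : G) (m : G) =
      ∑ l : G, if l ∈ NB L B ∧ (m : G) * l⁻¹ ∈ HB H B then f l (m : G) else 0 := by
    intro m
    rw [Finset.sum_eq_single ((π m : ↥L) : G)]
    · rw [if_pos (hπ m)]
    · intro l _ hl
      rw [if_neg]
      rintro ⟨h1, h2⟩
      exact hl (decomp_unique L H A hD B hB hne (m : G) l _ h1 (hπ m).1 h2 (hπ m).2)
    · intro h; exact absurd (Finset.mem_univ _) h
  rw [Finset.sum_congr rfl (fun m _ => h1 m)]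
  rw [← sum_ite_subgroup (MB L H B)
    (fun m => ∑ l : G, if l ∈ NB L B ∧ m * l⁻¹ ∈ HB H B then f l m else 0)]
  have h2 : ∀ m : G, (if m ∈ MB L H B then
      (∑ l : G, if l ∈ NB L B ∧ m * l⁻¹ ∈ HB H B then f l m else 0) else 0) =
      ∑ l : G, if l ∈ NB L B ∧ m * l⁻¹ ∈ HB H B then f l m else 0 := by
    intro m
    by_cases hm : m ∈ MB L H B
    · rw [if_pos hm]
    · rw [if_neg hm]
      symm
      apply Finset.sum_eq_zero
      intro l _
      rw [if_neg]
      rintro ⟨h1, h2⟩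
      apply hm
      rw [mem_MB L H A hD B hB]
      exact ⟨m * l⁻¹, h2, l, h1, by group⟩
  rw [Finset.sum_congr rfl (fun m _ => h2 m), Finset.sum_comm]
  apply Finset.sum_congr rfl
  intro l _
  apply Fintype.sum_equiv (Equiv.mulRight l⁻¹)
  intro m
  have e : m * l⁻¹ * l = m := by group
  simp only [Equiv.coe_mulRight, e]

open Classical in
theorem sum_ite_const (K : Subgroup G) (c : ℂ) :
    ∑ h : G, (if h ∈ K then c else 0) = (Nat.card K : ℂ) * c := by
  rw [sum_ite_subgroup K (fun _ => c)]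
  simp [Nat.card_eq_fintype_card]

/-- `|MB B| = |HB B| |NB B|` -/
theorem card_MB (hD : DadeHypothesis A L H) (B : Finset G) (hB : ∀ b ∈ B, b ∈ A)
    (hne : B.Nonempty) :
    (Nat.card (MB L H B) : ℂ) = (Nat.card (HB H B) : ℂ) * (Nat.card (NB L B) : ℂ) := by
  classical
  obtain ⟨π, hπ⟩ := exists_proj L H A hD B hB hne
  have h := sum_MB L H A hD B hB hne π hπ (fun _ _ => 1)
  have h1 : ∑ m : ↥(MB L H B), (1 : ℂ) = (Nat.card (MB L H B) : ℂ) := by
    simp [Nat.card_eq_fintype_card]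
  rw [h1] at h
  rw [h]
  have h2 : ∀ l : G, ∑ h : G, (if l ∈ NB L B ∧ h ∈ HB H B then (1 : ℂ) else 0) =
      if l ∈ NB L B then (Nat.card (HB H B) : ℂ) else 0 := by
    intro l
    by_cases hl : l ∈ NB L B
    · rw [if_pos hl]
      have := sum_ite_const (HB H B) 1
      rw [mul_one] at this
      rw [← this]
      apply Finset.sum_congr rfl
      intro h _
      by_cases hh : h ∈ HB H B
      · rw [if_pos ⟨hl, hh⟩, if_pos hh]
      · rw [if_neg (fun hc => hh hc.2), if_neg hh]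
    · rw [if_neg hl]
      apply Finset.sum_eq_zero
      intro h _
      rw [if_neg (fun hc => hl hc.1)]
  rw [Finset.sum_congr rfl (fun l _ => h2 l), sum_ite_const]
  ring

end Cfsg.Agent.Lib.Helper25.DadeSub
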