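import Mathlib
import Cfsg.Agent.Lib.Helper23.HNStmt

/-!
# S1438 call (helper23), piece CONJK (helper25, third seat)

An element of prime order `p` of `M` is `M`-conjugate into any `K ≤ M` of index prime to `p`:
the `p`-group `zpowers x` fixes a point of the coset space `M ⧸ K`.
-/

set_option autoImplicit false

namespace Cfsg.Agent.Lib.Helper25.HNCONJK

universe u

open Cfsg.Agent.Lib.Helper23.HNStmt

theorem main : ConjHall.{u} := by
  intro G _ _ M K hKM x hx p hp hord hndvd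
  haveI : Fact p.Prime := ⟨hp⟩
  have hZ : IsPGroup p ↥(Subgroup.zpowers (⟨x, hx⟩ : ↥M)) := by
    have hcard : Nat.card ↥(Subgroup.zpowers (⟨x, hx⟩ : ↥M)) = p := by
      rw [Nat.card_zpowers, Subgroup.orderOf_mk]; exact hord
    exact IsPGroup.of_card (n := 1) (by rw [hcard, pow_one])
  have hnd : ¬ p ∣ Nat.card (↥M ⧸ K.subgroupOf M) := hndvd
  obtain ⟨a, ha⟩ := hZ.nonempty_fixed_point_of_prime_not_dvd_card (↥M ⧸ K.subgroupOf M) hnd
  induction a using QuotientGroup.induction_on with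
  | H m =>
    have h1 := ha ⟨⟨x, hx⟩, Subgroup.mem_zpowers _⟩
    have h2 : (((⟨x, hx⟩ : ↥M) * m : ↥M) : ↥M ⧸ K.subgroupOf M) = (m : ↥M ⧸ K.subgroupOf M) := h1
    rw [QuotientGroup.eq] at h2
    have h3 : m⁻¹ * (⟨x, hx⟩ : ↥M) * m ∈ K.subgroupOf M := by
      have := (K.subgroupOf M).inv_mem h2
      have e : (((⟨x, hx⟩ : ↥M) * m)⁻¹ * m)⁻¹ = m⁻¹ * (⟨x, hx⟩ : ↥M) * m := by group
      rwa [e] at this
    rw [Subgroup.mem_subgroupOf] at h3
    refine ⟨((m⁻¹ : ↥M) : G), (m⁻¹ : ↥M).2, ?_⟩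
    simpa using h3

end Cfsg.Agent.Lib.Helper25.HNCONJK
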