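import Mathlib

/-!
Integer vectors of norm three ("signed triples") and the combinatorial core of the
construction of the cyclic TI family: two rows of signed triples with prescribed Gram matrix.
-/

set_option autoImplicit false

namespace Cfsg.Agent.Lib.Helper25.Sunflower

theorem int_sq_four (a b : ℤ) (ha : a = -1 ∨ a = 0 ∨ a = 1) (hb : b = -1 ∨ b = 0 ∨ b = 1)
    (h : ¬ 0 ≤ a * b) : (a - b) * (a - b) = 4 := by
  rcases ha with rfl | rfl | rfl <;> rcases hb with rfl | rfl | rfl <;> revert h <;> decide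

theorem int_eq_of (a b : ℤ) (ha : a = -1 ∨ a = 0 ∨ a = 1) (hb : b = -1 ∨ b = 0 ∨ b = 1)
    (h : 0 ≤ a * b) (ha0 : a ≠ 0) (hb0 : b ≠ 0) : a = b := by
  rcases ha with rfl | rfl | rfl <;> rcases hb with rfl | rfl | rfl <;> revert h ha0 hb0 <;>
    decide

variable {ι : Type*} [Fintype ι] [DecidableEq ι]

theorem sq_le (u : ι → ℤ) (x : ι) : u x * u x ≤ dotProduct u u := by
  unfold dotProduct
  exact Finset.single_le_sum (f := fun y => u y * u y) (fun y _ => mul_self_nonneg (u y))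
    (Finset.mem_univ x)

theorem val3 {u : ι → ℤ} (h : dotProduct u u = 3) (x : ι) : u x = -1 ∨ u x = 0 ∨ u x = 1 := by
  have h0 := sq_le u x
  rw [h] at h0
  have h1 : -1 ≤ u x := by nlinarith
  have h2 : u x ≤ 1 := by nlinarith
  omega

theorem sq_one {u : ι → ℤ} (h : dotProduct u u = 3) {x : ι} (hx : u x ≠ 0) : u x * u x = 1 := by
  rcases val3 h x with h1 | h1 | h1
  · rw [h1]; rfl
  · exact absurd h1 hx
  · rw [h1]; rfl

theorem sum_sq_le (u : ι → ℤ) (s : Finset ι) : ∑ x ∈ s, u x * u x ≤ dotProduct u u := by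
  unfold dotProduct
  exact Finset.sum_le_sum_of_subset_of_nonneg (Finset.subset_univ _)
    (fun y _ _ => mul_self_nonneg (u y))

theorem four_ne {u : ι → ℤ} (h : dotProduct u u = 3) {x1 x2 x3 x4 : ι} (h12 : x1 ≠ x2)
    (h13 : x1 ≠ x3) (h14 : x1 ≠ x4) (h23 : x2 ≠ x3) (h24 : x2 ≠ x4) (h34 : x3 ≠ x4) :
    u x1 = 0 ∨ u x2 = 0 ∨ u x3 = 0 ∨ u x4 = 0 := by
  by_contra hcon
  push Not at hcon
  obtain ⟨a1, a2, a3, a4⟩ := hcon
  have hs := sum_sq_le u ({x1, x2, x3, x4} : Finset ι)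
  rw [Finset.sum_insert (by simp [h12, h13, h14]), Finset.sum_insert (by simp [h23, h24]),
    Finset.sum_insert (by simp [h34]), Finset.sum_singleton, h, sq_one h a1, sq_one h a2,
    sq_one h a3, sq_one h a4] at hs
  omega

theorem supp_aux {u : ι → ℤ} (h3 : dotProduct u u = 3) (s : Finset ι) (n : ℤ) (hn : 0 < n)
    (hs : ∑ x ∈ s, u x * u x = n) :
    ∃ x ∈ s, u x ≠ 0 ∧ ∑ y ∈ s.erase x, u y * u y = n - 1 := by
  obtain ⟨x, hx, hne⟩ := Finset.exists_ne_zero_of_sum_ne_zero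
    (by rw [hs]; omega : ∑ x ∈ s, u x * u x ≠ 0)
  have hx0 : u x ≠ 0 := fun h0 => hne (by rw [h0]; ring)
  refine ⟨x, hx, hx0, ?_⟩
  have h1 := Finset.add_sum_erase s (fun y => u y * u y) hx
  rw [sq_one h3 hx0, hs] at h1
  omega

/-- the support of a norm-three vector, given three known points -/
theorem supp3_of_three {u : ι → ℤ} (h : dotProduct u u = 3) {x1 x2 x3 : ι} (h12 : x1 ≠ x2)
    (h13 : x1 ≠ x3) (h23 : x2 ≠ x3) (a1 : u x1 ≠ 0) (a2 : u x2 ≠ 0) (a3 : u x3 ≠ 0) (y : ι)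
    (hy : u y ≠ 0) : y = x1 ∨ y = x2 ∨ y = x3 := by
  by_contra hcon
  push Not at hcon
  obtain ⟨b1, b2, b3⟩ := hcon
  rcases four_ne h h12 h13 (Ne.symm b1) h23 (Ne.symm b2) (Ne.symm b3) with c | c | c | c
  · exact a1 c
  · exact a2 c
  · exact a3 c
  · exact hy c

theorem supp3_of_two {u : ι → ℤ} (h : dotProduct u u = 3) {x1 x2 : ι} (h12 : x1 ≠ x2)
    (a1 : u x1 ≠ 0) (a2 : u x2 ≠ 0) :
    ∃ x3, x1 ≠ x3 ∧ x2 ≠ x3 ∧ u x3 ≠ 0 ∧ ∀ y, u y ≠ 0 → y = x1 ∨ y = x2 ∨ y = x3 := by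
  have e1 := Finset.add_sum_erase Finset.univ (fun y => u y * u y) (Finset.mem_univ x1)
  have e2 := Finset.add_sum_erase (Finset.univ.erase x1) (fun y => u y * u y)
    (Finset.mem_erase.mpr ⟨Ne.symm h12, Finset.mem_univ x2⟩)
  have e0 : ∑ y, u y * u y = 3 := h
  rw [sq_one h a1, e0] at e1
  rw [sq_one h a2] at e2
  obtain ⟨x3, hx3, a3, -⟩ := supp_aux h ((Finset.univ.erase x1).erase x2) 1 (by norm_num)
    (by omega)
  have h23 : x2 ≠ x3 := Ne.symm (Finset.mem_erase.mp hx3).1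
  have h13 : x1 ≠ x3 := Ne.symm (Finset.mem_erase.mp (Finset.mem_erase.mp hx3).2).1
  exact ⟨x3, h13, h23, a3, supp3_of_three h h12 h13 h23 a1 a2 a3⟩

theorem supp3_of_one {u : ι → ℤ} (h : dotProduct u u = 3) {x1 : ι} (a1 : u x1 ≠ 0) :
    ∃ x2 x3, x1 ≠ x2 ∧ x1 ≠ x3 ∧ x2 ≠ x3 ∧ u x2 ≠ 0 ∧ u x3 ≠ 0 ∧
      ∀ y, u y ≠ 0 → y = x1 ∨ y = x2 ∨ y = x3 := by
  have e1 := Finset.add_sum_erase Finset.univ (fun y => u y * u y) (Finset.mem_univ x1)
  have e0 : ∑ y, u y * u y = 3 := h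
  rw [sq_one h a1, e0] at e1
  obtain ⟨x2, hx2, a2, -⟩ := supp_aux h (Finset.univ.erase x1) 2 (by norm_num) (by omega)
  have h12 : x1 ≠ x2 := Ne.symm (Finset.mem_erase.mp hx2).1
  obtain ⟨x3, h13, h23, a3, hall⟩ := supp3_of_two h h12 a1 a2
  exact ⟨x2, x3, h12, h13, h23, a2, a3, hall⟩

/-- a vector with three known non-zero values at distinct points -/
structure Sup (u : ι → ℤ) (x1 x2 x3 : ι) (a1 a2 a3 : ℤ) : Prop where
  n12 : x1 ≠ x2
  n13 : x1 ≠ x3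
  n23 : x2 ≠ x3
  v1 : u x1 = a1
  v2 : u x2 = a2
  v3 : u x3 = a3

theorem Sup.mem {u : ι → ℤ} {x1 x2 x3 : ι} {a1 a2 a3 : ℤ} (s : Sup u x1 x2 x3 a1 a2 a3)
    (h : dotProduct u u = 3) (b1 : a1 ≠ 0) (b2 : a2 ≠ 0) (b3 : a3 ≠ 0) {y : ι} (hy : u y ≠ 0) :
    y = x1 ∨ y = x2 ∨ y = x3 :=
  supp3_of_three h s.n12 s.n13 s.n23 (by rw [s.v1]; exact b1) (by rw [s.v2]; exact b2)
    (by rw [s.v3]; exact b3) y hy

theorem Sup.dot {u : ι → ℤ} {x1 x2 x3 : ι} {a1 a2 a3 : ℤ} (s : Sup u x1 x2 x3 a1 a2 a3)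
    (h : dotProduct u u = 3) (b1 : a1 ≠ 0) (b2 : a2 ≠ 0) (b3 : a3 ≠ 0) (w : ι → ℤ) :
    dotProduct u w = a1 * w x1 + a2 * w x2 + a3 * w x3 := by
  have hsub : ∑ x ∈ ({x1, x2, x3} : Finset ι), u x * w x = ∑ x, u x * w x := by
    apply Finset.sum_subset (Finset.subset_univ _)
    intro y _ hy
    have hy0 : u y = 0 := by
      by_contra hne
      rcases s.mem h b1 b2 b3 hne with rfl | rfl | rfl <;> simp at hy
    rw [hy0, zero_mul]
  unfold dotProduct
  rw [← hsub, Finset.sum_insert (by simp [s.n12, s.n13]), Finset.sum_insert (by simp [s.n23]),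
    Finset.sum_singleton, s.v1, s.v2, s.v3]
  ring

theorem Sup.dot' {u : ι → ℤ} {x1 x2 x3 : ι} {a1 a2 a3 : ℤ} (s : Sup u x1 x2 x3 a1 a2 a3)
    (h : dotProduct u u = 3) (b1 : a1 ≠ 0) (b2 : a2 ≠ 0) (b3 : a3 ≠ 0) (w : ι → ℤ) :
    dotProduct w u = a1 * w x1 + a2 * w x2 + a3 * w x3 := by
  rw [dotProduct_comm, s.dot h b1 b2 b3 w]

/-- sign compatibility from equal degrees -/
theorem typeA {u v d : ι → ℤ} (hd : ∀ x, d x ≠ 0) (hu : dotProduct u u = 3)
    (hv : dotProduct v v = 3) (huv : dotProduct u v = 1)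
    (hdeg : dotProduct u d = dotProduct v d) (x : ι) : 0 ≤ u x * v x := by
  by_contra hneg
  have hw : dotProduct (u - v) (u - v) = 4 := by
    rw [sub_dotProduct, dotProduct_sub, dotProduct_sub, hu, hv, huv, dotProduct_comm v u, huv]
    norm_num
  have hwd : dotProduct (u - v) d = 0 := by rw [sub_dotProduct, hdeg, sub_self]
  have hx : (u - v) x * (u - v) x = 4 := by
    rw [Pi.sub_apply]
    exact int_sq_four _ _ (val3 hu x) (val3 hv x) hneg
  have e1 := Finset.add_sum_erase Finset.univ (fun y => (u - v) y * (u - v) y) (Finset.mem_univ x)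
  have e0 : ∑ y, (u - v) y * (u - v) y = 4 := hw
  rw [hx, e0] at e1
  have hz : ∀ y ∈ Finset.univ.erase x, (u - v) y * (u - v) y = 0 :=
    (Finset.sum_eq_zero_iff_of_nonneg (fun y _ => mul_self_nonneg _)).mp (by omega)
  have e2 := Finset.add_sum_erase Finset.univ (fun y => (u - v) y * d y) (Finset.mem_univ x)
  have e3 : ∑ y, (u - v) y * d y = 0 := hwd
  have e4 : ∑ y ∈ Finset.univ.erase x, (u - v) y * d y = 0 := by
    apply Finset.sum_eq_zero
    intro y hy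
    have := hz y hy
    rw [mul_self_eq_zero] at this
    rw [this, zero_mul]
  rw [e3, e4, add_zero] at e2
  rcases mul_eq_zero.mp e2 with h5 | h5
  · rw [h5] at hx; norm_num at hx
  · exact hd x h5

theorem common_exists {u v : ι → ℤ} (huv : dotProduct u v = 1) :
    ∃ x, u x ≠ 0 ∧ v x ≠ 0 := by
  by_contra hcon
  push Not at hcon
  have : dotProduct u v = 0 := by
    unfold dotProduct
    apply Finset.sum_eq_zero
    intro x _
    by_cases hx : u x = 0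
    · rw [hx, zero_mul]
    · rw [hcon x hx, mul_zero]
  omega

theorem common_unique {u v : ι → ℤ} (hu : dotProduct u u = 3) (hv : dotProduct v v = 3)
    (huv : dotProduct u v = 1) (hp : ∀ x, 0 ≤ u x * v x) {x y : ι} (hx : u x ≠ 0)
    (hx' : v x ≠ 0) (hy : u y ≠ 0) (hy' : v y ≠ 0) : x = y := by
  by_contra hne
  have h1 : ∑ z ∈ ({x, y} : Finset ι), u z * v z ≤ dotProduct u v := by
    unfold dotProduct
    exact Finset.sum_le_sum_of_subset_of_nonneg (Finset.subset_univ _) (fun z _ _ => hp z)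
  rw [Finset.sum_insert (by simp [hne]), Finset.sum_singleton, huv] at h1
  have h2 : 0 < u x * v x := lt_of_le_of_ne (hp x) (Ne.symm (mul_ne_zero hx hx'))
  have h3 : 0 < u y * v y := lt_of_le_of_ne (hp y) (Ne.symm (mul_ne_zero hy hy'))
  omega

theorem common_eq {u v : ι → ℤ} (hu : dotProduct u u = 3) (hv : dotProduct v v = 3)
    (hp : ∀ x, 0 ≤ u x * v x) {x : ι} (hx : u x ≠ 0) (hx' : v x ≠ 0) : u x = v x := by
  exact int_eq_of _ _ (val3 hu x) (val3 hv x) (hp x) hx hx'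

end Cfsg.Agent.Lib.Helper25.Sunflower
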