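import Mathlib
import Cfsg.Agent.Lib.Helper25.Sunflower

/-!
Two rows of signed triples: the rows are "sunflowers".
-/

set_option autoImplicit false

namespace Cfsg.Agent.Lib.Helper25.Sunflower

variable {ι : Type*} [Fintype ι] [DecidableEq ι]

/-- Two rows `S`, `T` of signed triples with the Gram matrix of a `2 × n` grid. -/
structure TwoRows {J : Type*} (S T : J → ι → ℤ) : Prop where
  nS : ∀ j, dotProduct (S j) (S j) = 3
  nT : ∀ j, dotProduct (T j) (T j) = 3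
  SS : ∀ j k, j ≠ k → dotProduct (S j) (S k) = 1
  TT : ∀ j k, j ≠ k → dotProduct (T j) (T k) = 1
  ST : ∀ j, dotProduct (S j) (T j) = 1
  ST0 : ∀ j k, j ≠ k → dotProduct (S j) (T k) = 0
  pSS : ∀ j k, j ≠ k → ∀ x, 0 ≤ S j x * S k x
  pTT : ∀ j k, j ≠ k → ∀ x, 0 ≤ T j x * T k x
  pST : ∀ j x, 0 ≤ S j x * T j x

theorem X8 {J : Type*} {S T : J → ι → ℤ} (H : TwoRows S T)
    {j0 k1 k2 k3 : J} (h03 : j0 ≠ k3) (h13 : k1 ≠ k3) (h23 : k2 ≠ k3)
    {p1 p2 p3 o v q2 q3 t : ι} {τ : ℤ}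
    (s0 : Sup (S j0) p1 p2 p3 1 1 1) (s1 : Sup (S k1) p1 v o 1 1 1)
    (s2 : Sup (S k2) o p2 q2 1 1 1) (s3 : Sup (S k3) o p3 q3 1 1 1)
    (t0 : Sup (T j0) p1 v t 1 (-1) τ) (hτ : τ = 1 ∨ τ = -1)
    (t1 : Sup (T k1) p1 p2 q2 1 (-1) 1) : False := by
  have hτ0 : τ ≠ 0 := by rcases hτ with rfl | rfl <;> decide
  have e1 := s3.dot (H.nS k3) (by decide) (by decide) (by decide) (T k3)
  rw [H.ST k3] at e1
  have e2 := s0.dot (H.nS j0) (by decide) (by decide) (by decide) (T k3)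
  rw [H.ST0 j0 k3 h03] at e2
  have e3 := s1.dot (H.nS k1) (by decide) (by decide) (by decide) (T k3)
  rw [H.ST0 k1 k3 h13] at e3
  have e4 := s2.dot (H.nS k2) (by decide) (by decide) (by decide) (T k3)
  rw [H.ST0 k2 k3 h23] at e4
  have e5 := t0.dot (H.nT j0) (by decide) (by decide) hτ0 (T k3)
  rw [H.TT j0 k3 h03] at e5
  have e6 := t1.dot (H.nT k1) (by decide) (by decide) (by decide) (T k3)
  rw [H.TT k1 k3 h13] at e6
  have n1 := H.pST k3 o; rw [s3.v1] at n1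
  have n2 := H.pST k3 p3; rw [s3.v2] at n2
  have n3 := H.pST k3 q3; rw [s3.v3] at n3
  have n4 := H.pTT j0 k3 h03 p1; rw [t0.v1] at n4
  have n5 := H.pTT j0 k3 h03 v; rw [t0.v2] at n5
  have n6 := H.pTT j0 k3 h03 t; rw [t0.v3] at n6
  have n7 := H.pTT k1 k3 h13 p1; rw [t1.v1] at n7
  have n8 := H.pTT k1 k3 h13 p2; rw [t1.v2] at n8
  have n9 := H.pTT k1 k3 h13 q2; rw [t1.v3] at n9
  rcases hτ with rfl | rfl <;> omega

theorem X7 {J : Type*} {S T : J → ι → ℤ} (H : TwoRows S T)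
    {j0 k1 k2 k3 : J} (h01 : j0 ≠ k1) (h02 : j0 ≠ k2) (h03 : j0 ≠ k3) (h12 : k1 ≠ k2)
    (h13 : k1 ≠ k3) (h23 : k2 ≠ k3)
    {p1 p2 p3 o v q2 q3 t : ι} {τ : ℤ}
    (s0 : Sup (S j0) p1 p2 p3 1 1 1) (s1 : Sup (S k1) p1 v o 1 1 1)
    (s2 : Sup (S k2) o p2 q2 1 1 1) (s3 : Sup (S k3) o p3 q3 1 1 1)
    (t0 : Sup (T j0) p1 v t 1 (-1) τ) (hτ : τ = 1 ∨ τ = -1)
    (hot : o ≠ t) (htq2 : t ≠ q2) (htq3 : t ≠ q3) (hq : q2 ≠ q3) (hp1q2 : p1 ≠ q2)
    (hp1q3 : p1 ≠ q3) : False := by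
  have hτ0 : τ ≠ 0 := by rcases hτ with rfl | rfl <;> decide
  have a1 := s1.dot (H.nS k1) (by decide) (by decide) (by decide) (T k1)
  rw [H.ST k1] at a1
  have a2 := s0.dot (H.nS j0) (by decide) (by decide) (by decide) (T k1)
  rw [H.ST0 j0 k1 h01] at a2
  have a3 := s2.dot (H.nS k2) (by decide) (by decide) (by decide) (T k1)
  rw [H.ST0 k2 k1 h12.symm] at a3
  have a4 := s3.dot (H.nS k3) (by decide) (by decide) (by decide) (T k1)
  rw [H.ST0 k3 k1 h13.symm] at a4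
  have a5 := t0.dot (H.nT j0) (by decide) (by decide) hτ0 (T k1)
  rw [H.TT j0 k1 h01] at a5
  have n1 := H.pST k1 p1; rw [s1.v1] at n1
  have n2 := H.pST k1 v; rw [s1.v2] at n2
  have n3 := H.pST k1 o; rw [s1.v3] at n3
  have n5 := H.pTT j0 k1 h01 v; rw [t0.v2] at n5
  have n6 := H.pTT j0 k1 h01 t; rw [t0.v3] at n6
  have b1 := val3 (H.nT k1) p2
  have b2 := val3 (H.nT k1) p3
  have b3 := val3 (H.nT k1) q2
  have b4 := val3 (H.nT k1) q3
  have b5 := val3 (H.nT k1) t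
  have f := four_ne (H.nT k1) hot s2.n13 s3.n13 htq2 htq3 hq
  have key : (T k1 p1 = 1 ∧ T k1 p2 = -1 ∧ T k1 q2 = 1) ∨
      (T k1 p1 = 1 ∧ T k1 p3 = -1 ∧ T k1 q3 = 1) := by
    rcases hτ with rfl | rfl <;> omega
  rcases key with ⟨c1, c2, c3⟩ | ⟨c1, c2, c3⟩
  · exact X8 H h03 h13 h23 s0 s1 s2 s3 t0 hτ ⟨s0.n12, hp1q2, s2.n23, c1, c2, c3⟩
  · exact X8 H h02 h12 h23.symm ⟨s0.n13, s0.n12, s0.n23.symm, s0.v1, s0.v3, s0.v2⟩ s1 s3 s2 t0 hτ
      ⟨s0.n13, hp1q3, s3.n23, c1, c2, c3⟩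

theorem S01 {J : Type*} {S T : J → ι → ℤ} (H : TwoRows S T) (hpos : ∀ j x, 0 ≤ S j x) (j : J)
    (x : ι) : S j x = 0 ∨ S j x = 1 := by
  have h1 := val3 (H.nS j) x
  have h2 := hpos j x
  omega

theorem S_unique {J : Type*} {S T : J → ι → ℤ} (H : TwoRows S T) {j k : J} (hjk : j ≠ k)
    {x y : ι} (hx : S j x = 1) (hx' : S k x = 1) (hy : S j y = 1) (hy' : S k y = 1) : x = y :=
  common_unique (H.nS j) (H.nS k) (H.SS j k hjk) (H.pSS j k hjk) (by rw [hx]; decide)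
    (by rw [hx']; decide) (by rw [hy]; decide) (by rw [hy']; decide)

theorem S_common {J : Type*} {S T : J → ι → ℤ} (H : TwoRows S T) (hpos : ∀ j x, 0 ≤ S j x)
    {j k : J} (hjk : j ≠ k) : ∃ x, S j x = 1 ∧ S k x = 1 := by
  obtain ⟨x, h1, h2⟩ := common_exists (H.SS j k hjk)
  refine ⟨x, ?_, ?_⟩
  · rcases S01 H hpos j x with h | h
    · exact absurd h h1
    · exact h
  · rcases S01 H hpos k x with h | h
    · exact absurd h h2
    · exact h

theorem X4 {J : Type*} {S T : J → ι → ℤ} (H : TwoRows S T) (hpos : ∀ j x, 0 ≤ S j x)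
    {j0 k1 k2 k3 : J} (h01 : j0 ≠ k1) (h02 : j0 ≠ k2) (h03 : j0 ≠ k3) (h12 : k1 ≠ k2)
    (h13 : k1 ≠ k3) (h23 : k2 ≠ k3) {p1 p2 p3 o v : ι}
    (s0 : Sup (S j0) p1 p2 p3 1 1 1) (s1 : Sup (S k1) p1 v o 1 1 1)
    (hk2 : S k2 p2 = 1) (hk3 : S k3 p3 = 1)
    (c1 : T j0 p1 = 1) (c2 : T j0 p2 = 0) (c3 : T j0 p3 = 0) (cv : T j0 v = -1)
    (co : T j0 o = 0) : False := by
  obtain ⟨t, h1t, hvt, ht0, -⟩ := supp3_of_two (H.nT j0) s1.n12 (by rw [c1]; decide)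
    (by rw [cv]; decide)
  obtain ⟨τ, hτdef⟩ : ∃ τ, T j0 t = τ := ⟨_, rfl⟩
  have hτ0 : τ ≠ 0 := by rw [← hτdef]; exact ht0
  have hτ : τ = 1 ∨ τ = -1 := by
    have := val3 (H.nT j0) t
    rw [hτdef] at this
    omega
  have t0 : Sup (T j0) p1 v t 1 (-1) τ := ⟨s1.n12, h1t, hvt, c1, cv, hτdef⟩
  have z21 : S k2 p1 = 0 := by
    rcases S01 H hpos k2 p1 with h | h
    · exact h
    · exact absurd (S_unique H h02 s0.v1 h s0.v2 hk2) s0.n12
  have z31 : S k3 p1 = 0 := by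
    rcases S01 H hpos k3 p1 with h | h
    · exact h
    · exact absurd (S_unique H h03 s0.v1 h s0.v3 hk3) s0.n13
  have z12 : S k1 p2 = 0 := by
    rcases S01 H hpos k1 p2 with h | h
    · exact h
    · exact absurd (S_unique H h01 s0.v1 s1.v1 s0.v2 h) s0.n12
  have z13 : S k1 p3 = 0 := by
    rcases S01 H hpos k1 p3 with h | h
    · exact h
    · exact absurd (S_unique H h01 s0.v1 s1.v1 s0.v3 h) s0.n13
  have z23 : S k2 p3 = 0 := by
    rcases S01 H hpos k2 p3 with h | h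
    · exact h
    · exact absurd (S_unique H h02 s0.v2 hk2 s0.v3 h) s0.n23
  have z32 : S k3 p2 = 0 := by
    rcases S01 H hpos k3 p2 with h | h
    · exact h
    · exact absurd (S_unique H h03 s0.v2 h s0.v3 hk3) s0.n23
  have d2 := t0.dot' (H.nT j0) (by decide) (by decide) hτ0 (S k2)
  rw [H.ST0 k2 j0 h02.symm, z21] at d2
  have d3 := t0.dot' (H.nT j0) (by decide) (by decide) hτ0 (S k3)
  rw [H.ST0 k3 j0 h03.symm, z31] at d3
  have u2v := S01 H hpos k2 v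
  have u2t := S01 H hpos k2 t
  have u3v := S01 H hpos k3 v
  have u3t := S01 H hpos k3 t
  have hp2v : p2 ≠ v := by
    intro h; rw [h, s1.v2] at z12; exact one_ne_zero z12
  have hp2t : p2 ≠ t := by
    intro h; rw [h] at c2; exact ht0 c2
  have hp3v : p3 ≠ v := by
    intro h; rw [h, s1.v2] at z13; exact one_ne_zero z13
  have hp3t : p3 ≠ t := by
    intro h; rw [h] at c3; exact ht0 c3
  have w2 : S k2 v = 0 := by
    rcases u2v with h | h
    · exact h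
    · exfalso
      have ht2 : S k2 t = 1 := by rcases hτ with rfl | rfl <;> omega
      have hτ1 : τ = 1 := by rcases hτ with rfl | rfl <;> omega
      obtain ⟨c, hc2, hc3⟩ := S_common H hpos h23
      have sk2 : Sup (S k2) p2 v t 1 1 1 := ⟨hp2v, hp2t, hvt, hk2, h, ht2⟩
      rcases sk2.mem (H.nS k2) (by decide) (by decide) (by decide) (y := c)
        (by rw [hc2]; decide) with e | e | e
      · rw [e, z32] at hc3; exact zero_ne_one hc3
      · rw [e] at hc3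
        have : S k3 t = 1 := by subst hτ1; omega
        exact hvt (S_unique H h23 h hc3 ht2 this)
      · rw [e] at hc3
        have : S k3 v = 1 := by subst hτ1; omega
        exact hvt (S_unique H h23 h this ht2 hc3)
  have w3 : S k3 v = 0 := by
    rcases u3v with h | h
    · exact h
    · exfalso
      have ht3 : S k3 t = 1 := by rcases hτ with rfl | rfl <;> omega
      have hτ1 : τ = 1 := by rcases hτ with rfl | rfl <;> omega
      obtain ⟨c, hc2, hc3⟩ := S_common H hpos h23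
      have sk3 : Sup (S k3) p3 v t 1 1 1 := ⟨hp3v, hp3t, hvt, hk3, h, ht3⟩
      rcases sk3.mem (H.nS k3) (by decide) (by decide) (by decide) (y := c)
        (by rw [hc3]; decide) with e | e | e
      · rw [e, z23] at hc2; exact zero_ne_one hc2
      · rw [e, w2] at hc2; exact zero_ne_one hc2
      · rw [e] at hc2
        subst hτ1; omega
  have x2 : S k2 t = 0 := by rcases hτ with rfl | rfl <;> omega
  have x3 : S k3 t = 0 := by rcases hτ with rfl | rfl <;> omega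
  have o2 : S k2 o = 1 := by
    obtain ⟨c, hc1, hc2⟩ := S_common H hpos h12
    rcases s1.mem (H.nS k1) (by decide) (by decide) (by decide) (y := c)
      (by rw [hc1]; decide) with e | e | e
    · rw [e, z21] at hc2; exact absurd hc2 zero_ne_one
    · rw [e, w2] at hc2; exact absurd hc2 zero_ne_one
    · rw [e] at hc2; exact hc2
  have o3 : S k3 o = 1 := by
    obtain ⟨c, hc1, hc2⟩ := S_common H hpos h13
    rcases s1.mem (H.nS k1) (by decide) (by decide) (by decide) (y := c)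
      (by rw [hc1]; decide) with e | e | e
    · rw [e, z31] at hc2; exact absurd hc2 zero_ne_one
    · rw [e, w3] at hc2; exact absurd hc2 zero_ne_one
    · rw [e] at hc2; exact hc2
  have hop2 : o ≠ p2 := by
    intro h; rw [← h, s1.v3] at z12; exact one_ne_zero z12
  have hop3 : o ≠ p3 := by
    intro h; rw [← h, s1.v3] at z13; exact one_ne_zero z13
  obtain ⟨q2, hoq2, hp2q2, hq2, -⟩ := supp3_of_two (H.nS k2) hop2 (by rw [o2]; decide)
    (by rw [hk2]; decide)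
  have hq2' : S k2 q2 = 1 := by
    rcases S01 H hpos k2 q2 with h | h
    · exact absurd h hq2
    · exact h
  obtain ⟨q3, hoq3, hp3q3, hq3, -⟩ := supp3_of_two (H.nS k3) hop3 (by rw [o3]; decide)
    (by rw [hk3]; decide)
  have hq3' : S k3 q3 = 1 := by
    rcases S01 H hpos k3 q3 with h | h
    · exact absurd h hq3
    · exact h
  have hot : o ≠ t := by
    intro h; rw [h] at co; exact ht0 co
  have htq2 : t ≠ q2 := by
    intro h; rw [h, hq2'] at x2; exact one_ne_zero x2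
  have htq3 : t ≠ q3 := by
    intro h; rw [h, hq3'] at x3; exact one_ne_zero x3
  have hq : q2 ≠ q3 := by
    intro h
    rw [← h] at hq3'
    exact hoq2 (S_unique H h23 o2 o3 hq2' hq3')
  have hp1q2 : p1 ≠ q2 := by
    intro h; rw [h, hq2'] at z21; exact one_ne_zero z21
  have hp1q3 : p1 ≠ q3 := by
    intro h; rw [h, hq3'] at z31; exact one_ne_zero z31
  exact X7 H h01 h02 h03 h12 h13 h23 s0 s1 ⟨hop2, hoq2, hp2q2, o2, hk2, hq2'⟩
    ⟨hop3, hoq3, hp3q3, o3, hk3, hq3'⟩ t0 hτ hot htq2 htq3 hq hp1q2 hp1q3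

theorem X2 {J : Type*} {S T : J → ι → ℤ} (H : TwoRows S T) (hpos : ∀ j x, 0 ≤ S j x)
    {j0 k1 k2 k3 : J} (h01 : j0 ≠ k1) (h02 : j0 ≠ k2) (h03 : j0 ≠ k3) (h12 : k1 ≠ k2)
    (h13 : k1 ≠ k3) (h23 : k2 ≠ k3) {p1 p2 p3 : ι}
    (s0 : Sup (S j0) p1 p2 p3 1 1 1) (hk1 : S k1 p1 = 1)
    (hk2 : S k2 p2 = 1) (hk3 : S k3 p3 = 1)
    (c1 : T j0 p1 = 1) (c2 : T j0 p2 = 0) (c3 : T j0 p3 = 0) : False := by
  obtain ⟨v, o, h1v, h1o, hvo, hv, ho, -⟩ := supp3_of_one (H.nS k1)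
    (by rw [hk1]; decide : S k1 p1 ≠ 0)
  have hv' : S k1 v = 1 := by
    rcases S01 H hpos k1 v with h | h
    · exact absurd h hv
    · exact h
  have ho' : S k1 o = 1 := by
    rcases S01 H hpos k1 o with h | h
    · exact absurd h ho
    · exact h
  have s1 : Sup (S k1) p1 v o 1 1 1 := ⟨h1v, h1o, hvo, hk1, hv', ho'⟩
  have e := s1.dot (H.nS k1) (by decide) (by decide) (by decide) (T j0)
  rw [H.ST0 k1 j0 h01.symm, c1] at e
  have b1 := val3 (H.nT j0) v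
  have b2 := val3 (H.nT j0) o
  have key : (T j0 v = -1 ∧ T j0 o = 0) ∨ (T j0 v = 0 ∧ T j0 o = -1) := by omega
  rcases key with ⟨cv, co⟩ | ⟨cv, co⟩
  · exact X4 H hpos h01 h02 h03 h12 h13 h23 s0 s1 hk2 hk3 c1 c2 c3 cv co
  · exact X4 H hpos h01 h02 h03 h12 h13 h23 s0 ⟨h1o, h1v, hvo.symm, hk1, ho', hv'⟩ hk2 hk3
      c1 c2 c3 co cv

/-- no triple meets three others in three distinct points -/
theorem X {J : Type*} {S T : J → ι → ℤ} (H : TwoRows S T) (hpos : ∀ j x, 0 ≤ S j x)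
    {j0 k1 k2 k3 : J} (h01 : j0 ≠ k1) (h02 : j0 ≠ k2) (h03 : j0 ≠ k3) (h12 : k1 ≠ k2)
    (h13 : k1 ≠ k3) (h23 : k2 ≠ k3) {p1 p2 p3 : ι} (n12 : p1 ≠ p2) (n13 : p1 ≠ p3)
    (n23 : p2 ≠ p3) (a1 : S j0 p1 = 1) (a2 : S j0 p2 = 1) (a3 : S j0 p3 = 1)
    (hk1 : S k1 p1 = 1) (hk2 : S k2 p2 = 1) (hk3 : S k3 p3 = 1) : False := by
  have s0 : Sup (S j0) p1 p2 p3 1 1 1 := ⟨n12, n13, n23, a1, a2, a3⟩
  have e := s0.dot (H.nS j0) (by decide) (by decide) (by decide) (T j0)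
  rw [H.ST j0] at e
  have m1 := H.pST j0 p1; rw [a1] at m1
  have m2 := H.pST j0 p2; rw [a2] at m2
  have m3 := H.pST j0 p3; rw [a3] at m3
  have key : (T j0 p1 = 1 ∧ T j0 p2 = 0 ∧ T j0 p3 = 0) ∨
      (T j0 p1 = 0 ∧ T j0 p2 = 1 ∧ T j0 p3 = 0) ∨
      (T j0 p1 = 0 ∧ T j0 p2 = 0 ∧ T j0 p3 = 1) := by omega
  rcases key with ⟨c1, c2, c3⟩ | ⟨c1, c2, c3⟩ | ⟨c1, c2, c3⟩
  · exact X2 H hpos h01 h02 h03 h12 h13 h23 s0 hk1 hk2 hk3 c1 c2 c3
  · exact X2 H hpos h02 h01 h03 h12.symm h23 h13 ⟨n12.symm, n23, n13, a2, a1, a3⟩ hk2 hk1 hk3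
      c2 c1 c3
  · exact X2 H hpos h03 h01 h02 h13.symm h23.symm h12 ⟨n13.symm, n23.symm, n12, a3, a1, a2⟩
      hk3 hk1 hk2 c3 c1 c2

end Cfsg.Agent.Lib.Helper25.Sunflower
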