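import Mathlib
import Cfsg.Agent.Lib.Helper25.Sunflower2

/-!
Rows of a grid of signed triples have a common point; decomposition of the grid.
-/

set_option autoImplicit false

namespace Cfsg.Agent.Lib.Helper25.Sunflower

variable {ι : Type*} [Fintype ι] [DecidableEq ι]

theorem row_norm {J : Type*} {S T : J → ι → ℤ} (H : TwoRows S T) (hpos : ∀ j x, 0 ≤ S j x)
    {j1 j2 j3 j4 : J} (h12 : j1 ≠ j2) (h13 : j1 ≠ j3) (h14 : j1 ≠ j4) (h23 : j2 ≠ j3)
    (h24 : j2 ≠ j4) (h34 : j3 ≠ j4) : ∃ x, (∀ j, S j x = 1) ∧ ∀ j, T j x = 0 := by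
  obtain ⟨a, ha1, ha2⟩ := S_common H hpos h12
  have hall : ∀ j, S j a = 1 := by
    intro j
    by_cases e1 : j = j1
    · rw [e1]; exact ha1
    by_cases e2 : j = j2
    · rw [e2]; exact ha2
    obtain ⟨j', f1, f2, f3⟩ : ∃ j', j' ≠ j1 ∧ j' ≠ j2 ∧ j' ≠ j := by
      by_cases e3 : j = j3
      · exact ⟨j4, h14.symm, h24.symm, by rw [e3]; exact h34.symm⟩
      · exact ⟨j3, h13.symm, h23.symm, fun h => e3 h.symm⟩
    by_contra hja
    have hja0 : S j a = 0 := by
      rcases S01 H hpos j a with h | h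
      · exact h
      · exact absurd h hja
    obtain ⟨b, hb1, hb3⟩ := S_common H hpos (Ne.symm e1 : j1 ≠ j)
    obtain ⟨d, hd2, hd3⟩ := S_common H hpos (Ne.symm e2 : j2 ≠ j)
    have hab : a ≠ b := by
      intro h; rw [h, hb3] at hja0; exact one_ne_zero hja0
    have had : a ≠ d := by
      intro h; rw [h, hd3] at hja0; exact one_ne_zero hja0
    have hbd : b ≠ d := by
      intro h; rw [← h] at hd2; exact hab (S_unique H h12 ha1 ha2 hb1 hd2)
    obtain ⟨g1, hg1, hg1'⟩ := S_common H hpos (Ne.symm f1 : j1 ≠ j')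
    have c1 : g1 = a ∨ g1 = b := by
      by_contra hcon
      push Not at hcon
      exact X H hpos h12 (Ne.symm e1) (Ne.symm f1) (Ne.symm e2) (Ne.symm f2) (Ne.symm f3)
        hab (Ne.symm hcon.1) (Ne.symm hcon.2) ha1 hb1 hg1 ha2 hb3 hg1'
    rcases c1 with h | h
    · rw [h] at hg1'
      obtain ⟨g3, hg3, hg3'⟩ := S_common H hpos (Ne.symm f3 : j ≠ j')
      have c3 : g3 = b ∨ g3 = d := by
        by_contra hcon
        push Not at hcon
        exact X H hpos e1 e2 (Ne.symm f3) h12 (Ne.symm f1) (Ne.symm f2) hbd (Ne.symm hcon.1)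
          (Ne.symm hcon.2) hb3 hd3 hg3 hb1 hd2 hg3'
      rcases c3 with h' | h'
      · rw [h'] at hg3'
        exact hab (S_unique H (Ne.symm f1) ha1 hg1' hb1 hg3')
      · rw [h'] at hg3'
        exact had (S_unique H (Ne.symm f2) ha2 hg1' hd2 hg3')
    · rw [h] at hg1'
      obtain ⟨g2, hg2, hg2'⟩ := S_common H hpos (Ne.symm f2 : j2 ≠ j')
      have c2 : g2 = a ∨ g2 = d := by
        by_contra hcon
        push Not at hcon
        exact X H hpos h12.symm (Ne.symm e2) (Ne.symm f2) (Ne.symm e1) (Ne.symm f1) (Ne.symm f3)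
          had (Ne.symm hcon.1) (Ne.symm hcon.2) ha2 hd2 hg2 ha1 hd3 hg2'
      rcases c2 with h' | h'
      · rw [h'] at hg2'
        exact hab (S_unique H (Ne.symm f1) ha1 hg2' hb1 hg1')
      · rw [h'] at hg2'
        exact hbd (S_unique H (Ne.symm f3) hb3 hg1' hd3 hg2')
  refine ⟨a, hall, ?_⟩
  intro k
  by_contra hk
  have hk1 : T k a = 1 := by
    have h1 := H.pST k a
    rw [hall k] at h1
    have h2 := val3 (H.nT k) a
    omega
  have hex : ∀ j, j ≠ k → ∃ y, y ≠ a ∧ S j y = 1 ∧ T k y = -1 := by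
    intro j hj
    obtain ⟨y1, y2, n1, n2, n3, hy1, hy2, -⟩ := supp3_of_one (H.nS j)
      (by rw [hall j]; decide : S j a ≠ 0)
    have hy1' : S j y1 = 1 := by
      rcases S01 H hpos j y1 with h | h
      · exact absurd h hy1
      · exact h
    have hy2' : S j y2 = 1 := by
      rcases S01 H hpos j y2 with h | h
      · exact absurd h hy2
      · exact h
    have e := (⟨n1, n2, n3, hall j, hy1', hy2'⟩ : Sup (S j) a y1 y2 1 1 1).dot (H.nS j)
      (by decide) (by decide) (by decide) (T k)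
    rw [H.ST0 j k hj, hk1] at e
    have b1 := val3 (H.nT k) y1
    have b2 := val3 (H.nT k) y2
    rcases (by omega : T k y1 = -1 ∨ T k y2 = -1) with h | h
    · exact ⟨y1, n1.symm, hy1', h⟩
    · exact ⟨y2, n2.symm, hy2', h⟩
  obtain ⟨i1, i2, i3, d12, d13, d23, e1, e2, e3⟩ : ∃ i1 i2 i3 : J, i1 ≠ i2 ∧ i1 ≠ i3 ∧ i2 ≠ i3 ∧
      i1 ≠ k ∧ i2 ≠ k ∧ i3 ≠ k := by
    by_cases c1 : k = j1
    · exact ⟨j2, j3, j4, h23, h24, h34, by rw [c1]; exact h12.symm, by rw [c1]; exact h13.symm,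
        by rw [c1]; exact h14.symm⟩
    by_cases c2 : k = j2
    · exact ⟨j1, j3, j4, h13, h14, h34, by rw [c2]; exact h12, by rw [c2]; exact h23.symm,
        by rw [c2]; exact h24.symm⟩
    by_cases c3 : k = j3
    · exact ⟨j1, j2, j4, h12, h14, h24, by rw [c3]; exact h13, by rw [c3]; exact h23,
        by rw [c3]; exact h34.symm⟩
    · exact ⟨j1, j2, j3, h12, h13, h23, Ne.symm c1, Ne.symm c2, Ne.symm c3⟩
  obtain ⟨y1, m1, s1, t1⟩ := hex i1 e1
  obtain ⟨y2, m2, s2, t2⟩ := hex i2 e2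
  obtain ⟨y3, m3, s3, t3⟩ := hex i3 e3
  have q12 : y1 ≠ y2 := by
    intro h; rw [← h] at s2; exact m1 (S_unique H d12 s1 s2 (hall i1) (hall i2))
  have q13 : y1 ≠ y3 := by
    intro h; rw [← h] at s3; exact m1 (S_unique H d13 s1 s3 (hall i1) (hall i3))
  have q23 : y2 ≠ y3 := by
    intro h; rw [← h] at s3; exact m2 (S_unique H d23 s2 s3 (hall i2) (hall i3))
  rcases four_ne (H.nT k) (Ne.symm m1) (Ne.symm m2) (Ne.symm m3) q12 q13 q23 with h | h | h | h
  · exact hk h
  · rw [t1] at h; exact absurd h (by decide)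
  · rw [t2] at h; exact absurd h (by decide)
  · rw [t3] at h; exact absurd h (by decide)

theorem flip_dot (ε u v : ι → ℤ) (hε : ∀ x, ε x * ε x = 1) :
    dotProduct (fun x => ε x * u x) (fun x => ε x * v x) = dotProduct u v := by
  unfold dotProduct
  refine Finset.sum_congr rfl (fun x _ => ?_)
  have : ε x * u x * (ε x * v x) = (ε x * ε x) * (u x * v x) := by ring
  rw [this, hε x, one_mul]

omit [Fintype ι] [DecidableEq ι] in
theorem flip_mul (ε u v : ι → ℤ) (hε : ∀ x, ε x * ε x = 1) (x : ι) :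
    (ε x * u x) * (ε x * v x) = u x * v x := by
  have : ε x * u x * (ε x * v x) = (ε x * ε x) * (u x * v x) := by ring
  rw [this, hε x, one_mul]

theorem TwoRows.flip {J : Type*} {S T : J → ι → ℤ} (H : TwoRows S T) (ε : ι → ℤ)
    (hε : ∀ x, ε x * ε x = 1) :
    TwoRows (fun j x => ε x * S j x) (fun j x => ε x * T j x) where
  nS := fun j => (flip_dot ε (S j) (S j) hε).trans (H.nS j)
  nT := fun j => (flip_dot ε (T j) (T j) hε).trans (H.nT j)
  SS := fun j k h => (flip_dot ε (S j) (S k) hε).trans (H.SS j k h)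
  TT := fun j k h => (flip_dot ε (T j) (T k) hε).trans (H.TT j k h)
  ST := fun j => (flip_dot ε (S j) (T j) hε).trans (H.ST j)
  ST0 := fun j k h => (flip_dot ε (S j) (T k) hε).trans (H.ST0 j k h)
  pSS := fun j k h x => le_of_le_of_eq (H.pSS j k h x) (flip_mul ε (S j) (S k) hε x).symm
  pTT := fun j k h x => le_of_le_of_eq (H.pTT j k h x) (flip_mul ε (T j) (T k) hε x).symm
  pST := fun j x => le_of_le_of_eq (H.pST j x) (flip_mul ε (S j) (T j) hε x).symm

/-- the first row has a common point, which does not lie in the support of the second row -/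
theorem row_center {J : Type*} {S T : J → ι → ℤ} (H : TwoRows S T)
    {j1 j2 j3 j4 : J} (h12 : j1 ≠ j2) (h13 : j1 ≠ j3) (h14 : j1 ≠ j4) (h23 : j2 ≠ j3)
    (h24 : j2 ≠ j4) (h34 : j3 ≠ j4) : ∃ x, (∀ j, S j x ≠ 0) ∧ ∀ j, T j x = 0 := by
  classical
  obtain ⟨ε, hε, hpos⟩ : ∃ ε : ι → ℤ, (∀ x, ε x * ε x = 1) ∧ ∀ j x, 0 ≤ ε x * S j x := by
    refine ⟨fun x => if ∃ j, S j x < 0 then -1 else 1, fun x => ?_, fun j x => ?_⟩
    · by_cases h : ∃ j, S j x < 0
      · simp only [if_pos h]; norm_num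
      · simp only [if_neg h]; norm_num
    · by_cases h : ∃ j, S j x < 0
      · simp only [if_pos h]
        obtain ⟨j', hj'⟩ := h
        by_cases hjj : j = j'
        · rw [hjj]; omega
        · have h1 := H.pSS j j' hjj x
          have h2 := val3 (H.nS j') x
          have h3 : S j' x = -1 := by omega
          rw [h3] at h1
          omega
      · simp only [if_neg h]
        push Not at h
        have := h j
        omega
  obtain ⟨x, h1, h2⟩ := row_norm (H.flip ε hε) hpos h12 h13 h14 h23 h24 h34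
  refine ⟨x, fun j h0 => ?_, fun j => ?_⟩
  · have h3 : ε x * S j x = 1 := h1 j
    rw [h0, mul_zero] at h3
    exact zero_ne_one h3
  · have h3 : ε x * T j x = 0 := h2 j
    rcases mul_eq_zero.mp h3 with h | h
    · have h4 := hε x
      rw [h, mul_zero] at h4
      exact absurd h4 zero_ne_one
    · exact h

end Cfsg.Agent.Lib.Helper25.Sunflower
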