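import Mathlib
import Cfsg.Agent.Lib.Helper25.Sunflower3

/-!
A grid of signed triples with the Gram matrix `δ + δ + δδ` decomposes as `-A i - B j + C i j`.
-/

set_option autoImplicit false

namespace Cfsg.Agent.Lib.Helper25.Sunflower

variable {ι : Type*} [Fintype ι] [DecidableEq ι]

structure Grid {I J : Type*} [DecidableEq I] [DecidableEq J] (γ : I → J → ι → ℤ) : Prop where
  gram : ∀ i j i' j', dotProduct (γ i j) (γ i' j') =
    (if i = i' then 1 else 0) + (if j = j' then 1 else 0) + (if i = i' ∧ j = j' then 1 else 0)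
  prow : ∀ i j j', j ≠ j' → ∀ x, 0 ≤ γ i j x * γ i j' x
  pcol : ∀ i i' j, i ≠ i' → ∀ x, 0 ≤ γ i j x * γ i' j x

theorem Grid.norm {I J : Type*} [DecidableEq I] [DecidableEq J] {γ : I → J → ι → ℤ}
    (G : Grid γ) (i : I) (j : J) : dotProduct (γ i j) (γ i j) = 3 := by
  rw [G.gram]; simp

theorem Grid.twoRows {I J : Type*} [DecidableEq I] [DecidableEq J] {γ : I → J → ι → ℤ}
    (G : Grid γ) {i i' : I} (h : i ≠ i') : TwoRows (γ i) (γ i') where
  nS := fun j => G.norm i j
  nT := fun j => G.norm i' j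
  SS := fun j k hjk => by rw [G.gram]; simp [hjk]
  TT := fun j k hjk => by rw [G.gram]; simp [hjk]
  ST := fun j => by rw [G.gram]; simp [h]
  ST0 := fun j k hjk => by rw [G.gram]; simp [h, hjk]
  pSS := fun j k hjk x => G.prow i j k hjk x
  pTT := fun j k hjk x => G.prow i' j k hjk x
  pST := fun j x => G.pcol i i' j h x

theorem Grid.transpose {I J : Type*} [DecidableEq I] [DecidableEq J] {γ : I → J → ι → ℤ}
    (G : Grid γ) : Grid (fun j i => γ i j) where
  gram := fun j i j' i' => by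
    rw [G.gram]
    by_cases h1 : i = i' <;> by_cases h2 : j = j' <;> simp [h1, h2]
  prow := fun j i i' h x => G.pcol i i' j h x
  pcol := fun j j' i h x => G.prow i j j' h x

theorem Grid.row_center {I J : Type*} [DecidableEq I] [DecidableEq J] {γ : I → J → ι → ℤ}
    (G : Grid γ) {j1 j2 j3 j4 : J} (h12 : j1 ≠ j2) (h13 : j1 ≠ j3) (h14 : j1 ≠ j4)
    (h23 : j2 ≠ j3) (h24 : j2 ≠ j4) (h34 : j3 ≠ j4) (i : I) (hI : ∃ i', i' ≠ i) :
    ∃ x, (∀ j, γ i j x ≠ 0) ∧ ∀ i', i' ≠ i → ∀ j, γ i' j x = 0 := by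
  obtain ⟨i0, hi0⟩ := hI
  obtain ⟨x, hx1, -⟩ := Sunflower.row_center (G.twoRows (Ne.symm hi0)) h12 h13 h14 h23 h24 h34
  refine ⟨x, hx1, fun i' hi' j => ?_⟩
  obtain ⟨x', hx1', hx2'⟩ := Sunflower.row_center (G.twoRows (Ne.symm hi')) h12 h13 h14 h23 h24
    h34
  have hxx : x = x' := common_unique (G.norm i j1) (G.norm i j2)
    ((G.twoRows (Ne.symm hi')).SS j1 j2 h12) (G.prow i j1 j2 h12) (hx1 j1) (hx1 j2) (hx1' j1)
    (hx1' j2)
  rw [hxx]
  exact hx2' j

theorem Grid.col_center_two {I J : Type*} [DecidableEq I] [DecidableEq J] {γ : I → J → ι → ℤ}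
    (G : Grid γ) {i1 i2 : I} (h12 : i1 ≠ i2) (hall : ∀ i, i = i1 ∨ i = i2)
    (hrow : ∀ i, ∃ x, (∀ j, γ i j x ≠ 0) ∧ ∀ i', i' ≠ i → ∀ j, γ i' j x = 0) (j : J) :
    ∃ y, (∀ i, γ i j y ≠ 0) ∧ ∀ j', j' ≠ j → ∀ i, γ i j' y = 0 := by
  have hd : dotProduct (γ i1 j) (γ i2 j) = 1 := by rw [G.gram]; simp [h12]
  obtain ⟨y, hy1, hy2⟩ := common_exists hd
  have hyall : ∀ i, γ i j y ≠ 0 := by
    intro i
    rcases hall i with rfl | rfl
    · exact hy1
    · exact hy2
  refine ⟨y, hyall, fun j' hj' i => ?_⟩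
  by_contra hne
  obtain ⟨x, hx1, hx2⟩ := hrow i
  have hdj : dotProduct (γ i j) (γ i j') = 1 := by rw [G.gram]; simp [Ne.symm hj']
  have hyx : y = x := common_unique (G.norm i j) (G.norm i j') hdj
    (G.prow i j j' (Ne.symm hj')) (hyall i) hne (hx1 j) (hx1 j')
  obtain ⟨i', hi'⟩ : ∃ i', i' ≠ i := by
    rcases hall i with rfl | rfl
    · exact ⟨i2, Ne.symm h12⟩
    · exact ⟨i1, h12⟩
  have h0 := hx2 i' hi' j
  rw [← hyx] at h0
  exact hyall i' h0

theorem Grid.decompose {I J : Type*} [DecidableEq I] [DecidableEq J] {γ : I → J → ι → ℤ}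
    (G : Grid γ) (hI2 : ∃ i i' : I, i ≠ i') (hJ2 : ∃ j j' : J, j ≠ j')
    (hrow : ∀ i, ∃ x, (∀ j, γ i j x ≠ 0) ∧ ∀ i', i' ≠ i → ∀ j, γ i' j x = 0)
    (hcol : ∀ j, ∃ y, (∀ i, γ i j y ≠ 0) ∧ ∀ j', j' ≠ j → ∀ i, γ i j' y = 0) :
    ∃ (A : I → ι → ℤ) (B : J → ι → ℤ) (C : I → J → ι → ℤ),
      (∀ i i', dotProduct (A i) (A i') = if i = i' then 1 else 0) ∧
      (∀ j j', dotProduct (B j) (B j') = if j = j' then 1 else 0) ∧
      (∀ i j, dotProduct (A i) (B j) = 0) ∧
      (∀ i i' j', dotProduct (A i) (C i' j') = 0) ∧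
      (∀ j i' j', dotProduct (B j) (C i' j') = 0) ∧
      (∀ i j i' j', dotProduct (C i j) (C i' j') = if i = i' ∧ j = j' then 1 else 0) ∧
      (∀ z, (∀ i j, γ i j z = 0) → (∀ i, A i z = 0) ∧ (∀ j, B j z = 0) ∧ ∀ i j, C i j z = 0) ∧
      ∀ i j, γ i j = - A i - B j + C i j := by
  choose x hx1 hx2 using hrow
  choose y hy1 hy2 using hcol
  obtain ⟨is, is', his⟩ := hI2
  obtain ⟨js, js', hjs⟩ := hJ2
  obtain ⟨a, hadef⟩ : ∃ a : I → ℤ, a = fun i => γ i js (x i) := ⟨_, rfl⟩
  obtain ⟨b, hbdef⟩ : ∃ b : J → ℤ, b = fun j => γ is j (y j) := ⟨_, rfl⟩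
  have ha : ∀ i j, γ i j (x i) = a i := by
    intro i j
    rw [hadef]
    by_cases h : j = js
    · rw [h]
    · exact common_eq (G.norm i j) (G.norm i js) (G.prow i j js h) (hx1 i j) (hx1 i js)
  have hb : ∀ i j, γ i j (y j) = b j := by
    intro i j
    rw [hbdef]
    by_cases h : i = is
    · rw [h]
    · exact common_eq (G.norm i j) (G.norm is j) (G.pcol i is j h) (hy1 j i) (hy1 j is)
  have ha2 : ∀ i, a i * a i = 1 := by
    intro i
    rw [← ha i js]
    exact sq_one (G.norm i js) (hx1 i js)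
  have hb2 : ∀ j, b j * b j = 1 := by
    intro j
    rw [← hb is j]
    exact sq_one (G.norm is j) (hy1 j is)
  have hxx : ∀ i i', i ≠ i' → x i ≠ x i' := by
    intro i i' h e
    have h1 := hx2 i' i h js
    rw [← e] at h1
    exact hx1 i js h1
  have hyy : ∀ j j', j ≠ j' → y j ≠ y j' := by
    intro j j' h e
    have h1 := hy2 j' j h is
    rw [← e] at h1
    exact hy1 j is h1
  have hxy : ∀ i j, x i ≠ y j := by
    intro i j e
    obtain ⟨j', hj'⟩ : ∃ j', j' ≠ j := by
      by_cases h : js = j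
      · exact ⟨js', fun h' => hjs (h.trans h'.symm)⟩
      · exact ⟨js, h⟩
    have h1 := hy2 j j' hj' i
    rw [← e] at h1
    exact hx1 i j' h1
  obtain ⟨A, hA⟩ : ∃ A : I → ι → ℤ, A = fun i => Pi.single (x i) (-a i) := ⟨_, rfl⟩
  obtain ⟨B, hB⟩ : ∃ B : J → ι → ℤ, B = fun j => Pi.single (y j) (-b j) := ⟨_, rfl⟩
  have AA : ∀ i i', dotProduct (A i) (A i') = if i = i' then 1 else 0 := by
    intro i i'
    rw [hA]
    simp only [single_dotProduct]
    by_cases h : i = i'
    · rw [h, Pi.single_eq_same, if_pos rfl]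
      have := ha2 i'
      linarith
    · rw [Pi.single_eq_of_ne (hxx i i' h), if_neg h, mul_zero]
  have BB : ∀ j j', dotProduct (B j) (B j') = if j = j' then 1 else 0 := by
    intro j j'
    rw [hB]
    simp only [single_dotProduct]
    by_cases h : j = j'
    · rw [h, Pi.single_eq_same, if_pos rfl]
      have := hb2 j'
      linarith
    · rw [Pi.single_eq_of_ne (hyy j j' h), if_neg h, mul_zero]
  have AB : ∀ i j, dotProduct (A i) (B j) = 0 := by
    intro i j
    rw [hA, hB]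
    simp only [single_dotProduct]
    rw [Pi.single_eq_of_ne (hxy i j), mul_zero]
  have gA : ∀ i j i', dotProduct (γ i j) (A i') = if i = i' then -1 else 0 := by
    intro i j i'
    rw [hA]
    simp only [dotProduct_single]
    by_cases h : i = i'
    · rw [h, ha i' j, if_pos rfl]
      have := ha2 i'
      linarith
    · rw [hx2 i' i h j, if_neg h, zero_mul]
  have gB : ∀ i j j', dotProduct (γ i j) (B j') = if j = j' then -1 else 0 := by
    intro i j j'
    rw [hB]
    simp only [dotProduct_single]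
    by_cases h : j = j'
    · rw [h, hb i j', if_pos rfl]
      have := hb2 j'
      linarith
    · rw [hy2 j' j h i, if_neg h, zero_mul]
  have AC : ∀ i i' j', dotProduct (A i) (γ i' j' + A i' + B j') = 0 := by
    intro i i' j'
    rw [dotProduct_add, dotProduct_add, dotProduct_comm (A i) (γ i' j'), gA, AA, AB]
    by_cases h : i = i'
    · simp [h]
    · simp [h, Ne.symm h]
  have BC : ∀ j i' j', dotProduct (B j) (γ i' j' + A i' + B j') = 0 := by
    intro j i' j'
    rw [dotProduct_add, dotProduct_add, dotProduct_comm (B j) (γ i' j'), gB,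
      dotProduct_comm (B j) (A i'), AB, BB]
    by_cases h : j = j'
    · simp [h]
    · simp [h, Ne.symm h]
  refine ⟨A, B, fun i j => γ i j + A i + B j, AA, BB, AB, AC, BC, ?_, ?_, ?_⟩
  · intro i j i' j'
    rw [add_dotProduct, add_dotProduct, AC, BC, add_zero, add_zero, dotProduct_add,
      dotProduct_add, G.gram, gA, gB]
    by_cases h1 : i = i' <;> by_cases h2 : j = j' <;> simp [h1, h2]
  · intro z hz
    have hzx : ∀ i, z ≠ x i := by
      intro i e
      have := hz i js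
      rw [e] at this
      exact hx1 i js this
    have hzy : ∀ j, z ≠ y j := by
      intro j e
      have := hz is j
      rw [e] at this
      exact hy1 j is this
    have hAz : ∀ i, A i z = 0 := by
      intro i
      rw [hA]
      exact Pi.single_eq_of_ne (hzx i) _
    have hBz : ∀ j, B j z = 0 := by
      intro j
      rw [hB]
      exact Pi.single_eq_of_ne (hzy j) _
    refine ⟨hAz, hBz, fun i j => ?_⟩
    simp only [Pi.add_apply, hz i j, hAz i, hBz j, add_zero]
  · intro i j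
    funext z
    simp only [Pi.add_apply, Pi.sub_apply, Pi.neg_apply]
    ring

end Cfsg.Agent.Lib.Helper25.Sunflower
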