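import Mathlib
import Cfsg.Agent.Lib.Helper25.Sunflower4

/-!
The combinatorial lemma behind the cyclic TI family, with distinguished indices.
-/

set_option autoImplicit false

namespace Cfsg.Agent.Lib.Helper25.Sunflower

variable {ι : Type*} [Fintype ι] [DecidableEq ι]

theorem card_ne {I : Type*} [Fintype I] [DecidableEq I] (i0 : I) :
    Fintype.card {i : I // i ≠ i0} = Fintype.card I - 1 := by
  rw [Fintype.card_of_subtype (Finset.univ.erase i0) (fun x => by simp)]
  rw [Finset.card_erase_of_mem (Finset.mem_univ _), Finset.card_univ]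

theorem exists_four {K : Type*} [Fintype K] (h : 4 ≤ Fintype.card K) :
    ∃ k1 k2 k3 k4 : K, k1 ≠ k2 ∧ k1 ≠ k3 ∧ k1 ≠ k4 ∧ k2 ≠ k3 ∧ k2 ≠ k4 ∧ k3 ≠ k4 := by
  obtain ⟨e⟩ := Function.Embedding.nonempty_of_card_le (α := Fin 4) (β := K) (by simpa using h)
  exact ⟨e 0, e 1, e 2, e 3, e.injective.ne (by decide), e.injective.ne (by decide),
    e.injective.ne (by decide), e.injective.ne (by decide), e.injective.ne (by decide),
    e.injective.ne (by decide)⟩

theorem main {I J : Type*} [Fintype I] [Fintype J] [DecidableEq I] [DecidableEq J] (i0 : I)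
    (j0 : J) (hI : Fintype.card I = 3 ∨ 5 ≤ Fintype.card I) (hJ : 5 ≤ Fintype.card J)
    (d : ι → ℤ) (hd : ∀ x, d x ≠ 0) (z0 : ι) (γ : I → J → ι → ℤ)
    (hG : ∀ i j i' j', i ≠ i0 → j ≠ j0 → i' ≠ i0 → j' ≠ j0 →
      dotProduct (γ i j) (γ i' j') = (if i = i' then 1 else 0) + (if j = j' then 1 else 0) +
        (if i = i' ∧ j = j' then 1 else 0))
    (hdeg : ∀ i j i' j', i ≠ i0 → j ≠ j0 → i' ≠ i0 → j' ≠ j0 →
      dotProduct (γ i j) d = dotProduct (γ i' j') d)
    (hz : ∀ i j, i ≠ i0 → j ≠ j0 → γ i j z0 = 0) :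
    ∃ X : I → J → ι → ℤ, X i0 j0 = Pi.single z0 1 ∧
      (∀ i j i' j', dotProduct (X i j) (X i' j') = if i = i' ∧ j = j' then 1 else 0) ∧
      ∀ i j, i ≠ i0 → j ≠ j0 → γ i j = - X i j0 - X i0 j + X i j := by
  classical
  have cI := card_ne i0
  have cJ := card_ne j0
  obtain ⟨γ', hγ'⟩ : ∃ γ' : {i : I // i ≠ i0} → {j : J // j ≠ j0} → ι → ℤ,
      γ' = fun i j => γ i.1 j.1 := ⟨_, rfl⟩
  have hnorm : ∀ (i : {i : I // i ≠ i0}) (j : {j : J // j ≠ j0}),
      dotProduct (γ' i j) (γ' i j) = 3 := by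
    intro i j
    rw [hγ']
    have := hG i.1 j.1 i.1 j.1 i.2 j.2 i.2 j.2
    simpa using this
  have G : Grid γ' :=
    { gram := by
        intro i j i' j'
        rw [hγ']
        have := hG i.1 j.1 i'.1 j'.1 i.2 j.2 i'.2 j'.2
        simpa [Subtype.ext_iff] using this
      prow := by
        intro i j j' hjj' x
        have h1 : dotProduct (γ' i j) (γ' i j') = 1 := by
          rw [hγ']
          have := hG i.1 j.1 i.1 j'.1 i.2 j.2 i.2 j'.2
          have hne : j.1 ≠ j'.1 := fun h => hjj' (Subtype.ext h)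
          simpa [hne] using this
        have h2 : dotProduct (γ' i j) d = dotProduct (γ' i j') d := by
          rw [hγ']
          exact hdeg i.1 j.1 i.1 j'.1 i.2 j.2 i.2 j'.2
        exact typeA hd (hnorm i j) (hnorm i j') h1 h2 x
      pcol := by
        intro i i' j hii' x
        have h1 : dotProduct (γ' i j) (γ' i' j) = 1 := by
          rw [hγ']
          have := hG i.1 j.1 i'.1 j.1 i.2 j.2 i'.2 j.2
          have hne : i.1 ≠ i'.1 := fun h => hii' (Subtype.ext h)
          simpa [hne] using this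
        have h2 : dotProduct (γ' i j) d = dotProduct (γ' i' j) d := by
          rw [hγ']
          exact hdeg i.1 j.1 i'.1 j.1 i.2 j.2 i'.2 j.2
        exact typeA hd (hnorm i j) (hnorm i' j) h1 h2 x }
  obtain ⟨j1, j2, j3, j4, g12, g13, g14, g23, g24, g34⟩ :=
    exists_four (K := {j : J // j ≠ j0}) (by omega)
  have hI2 : ∃ i i' : {i : I // i ≠ i0}, i ≠ i' := by
    have h2 : 1 < Fintype.card {i : I // i ≠ i0} := by omega
    obtain ⟨a, b, hab⟩ := Fintype.one_lt_card_iff.mp h2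
    exact ⟨a, b, hab⟩
  have hJ2 : ∃ j j' : {j : J // j ≠ j0}, j ≠ j' := ⟨j1, j2, g12⟩
  have hrow : ∀ i : {i : I // i ≠ i0}, ∃ x, (∀ j, γ' i j x ≠ 0) ∧
      ∀ i', i' ≠ i → ∀ j, γ' i' j x = 0 := by
    intro i
    refine G.row_center g12 g13 g14 g23 g24 g34 i ?_
    obtain ⟨a, b, hab⟩ := hI2
    by_cases h : a = i
    · exact ⟨b, fun h' => hab (h.trans h'.symm)⟩
    · exact ⟨a, h⟩
  have hcol : ∀ j : {j : J // j ≠ j0}, ∃ y, (∀ i, γ' i j y ≠ 0) ∧
      ∀ j', j' ≠ j → ∀ i, γ' i j' y = 0 := by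
    intro j
    rcases hI with h3 | h5
    · have h2 : (Finset.univ : Finset {i : I // i ≠ i0}).card = 2 := by
        rw [Finset.card_univ, cI, h3]
      obtain ⟨a, b, hab, huniv⟩ := Finset.card_eq_two.mp h2
      refine G.col_center_two hab (fun i => ?_) hrow j
      have : i ∈ (Finset.univ : Finset {i : I // i ≠ i0}) := Finset.mem_univ i
      rw [huniv] at this
      simpa using this
    · obtain ⟨i1, i2, i3, i4, f12, f13, f14, f23, f24, f34⟩ :=
        exists_four (K := {i : I // i ≠ i0}) (by omega)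
      refine G.transpose.row_center f12 f13 f14 f23 f24 f34 j ?_
      by_cases h : j1 = j
      · exact ⟨j2, fun h' => g12 (h.trans h'.symm)⟩
      · exact ⟨j1, h⟩
  obtain ⟨A, B, C, AA, BB, AB, AC, BC, CC, hZ, hEq⟩ := G.decompose hI2 hJ2 hrow hcol
  obtain ⟨hAz, hBz, hCz⟩ := hZ z0 (fun i j => by rw [hγ']; exact hz i.1 j.1 i.2 j.2)
  obtain ⟨Z, hZdef⟩ : ∃ Z : ι → ℤ, Z = Pi.single z0 1 := ⟨_, rfl⟩
  have ZZ : dotProduct Z Z = 1 := by
    rw [hZdef, single_dotProduct, Pi.single_eq_same, mul_one]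
  have ZA : ∀ i, dotProduct Z (A i) = 0 := by
    intro i
    rw [hZdef, single_dotProduct, hAz i, mul_zero]
  have ZB : ∀ j, dotProduct Z (B j) = 0 := by
    intro j
    rw [hZdef, single_dotProduct, hBz j, mul_zero]
  have ZC : ∀ i j, dotProduct Z (C i j) = 0 := by
    intro i j
    rw [hZdef, single_dotProduct, hCz i j, mul_zero]
  obtain ⟨X, hX⟩ : ∃ X : I → J → ι → ℤ, X = fun i j =>
      if hi : i = i0 then (if hj : j = j0 then Z else B ⟨j, hj⟩)
      else (if hj : j = j0 then A ⟨i, hi⟩ else C ⟨i, hi⟩ ⟨j, hj⟩) := ⟨_, rfl⟩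
  have X00 : X i0 j0 = Z := by
    rw [hX]; simp only [dif_pos]
  have X0j : ∀ j (hj : j ≠ j0), X i0 j = B ⟨j, hj⟩ := by
    intro j hj
    rw [hX]; simp only [dif_pos, dif_neg hj]
  have Xi0 : ∀ i (hi : i ≠ i0), X i j0 = A ⟨i, hi⟩ := by
    intro i hi
    rw [hX]; simp only [dif_pos, dif_neg hi]
  have Xij : ∀ i j (hi : i ≠ i0) (hj : j ≠ j0), X i j = C ⟨i, hi⟩ ⟨j, hj⟩ := by
    intro i j hi hj
    rw [hX]; simp only [dif_neg hi, dif_neg hj]
  refine ⟨X, by rw [X00, hZdef], ?_, ?_⟩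
  · intro i j i' j'
    by_cases hi : i = i0
    · by_cases hj : j = j0
      · by_cases hi' : i' = i0
        · by_cases hj' : j' = j0
          · rw [hi, hj, hi', hj', X00, ZZ]; simp
          · rw [hi, hj, hi', X00, X0j j' hj', ZB]; simp [Ne.symm hj']
        · by_cases hj' : j' = j0
          · rw [hi, hj, hj', X00, Xi0 i' hi', ZA]; simp [Ne.symm hi']
          · rw [hi, hj, X00, Xij i' j' hi' hj', ZC]; simp [Ne.symm hi']
      · by_cases hi' : i' = i0
        · by_cases hj' : j' = j0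
          · rw [hi, hi', hj', X0j j hj, X00, dotProduct_comm, ZB]; simp [hj]
          · rw [hi, hi', X0j j hj, X0j j' hj', BB]; simp
        · by_cases hj' : j' = j0
          · rw [hi, hj', X0j j hj, Xi0 i' hi', dotProduct_comm, AB]; simp [Ne.symm hi']
          · rw [hi, X0j j hj, Xij i' j' hi' hj', BC]; simp [Ne.symm hi']
    · by_cases hj : j = j0
      · by_cases hi' : i' = i0
        · by_cases hj' : j' = j0
          · rw [hj, hi', hj', Xi0 i hi, X00, dotProduct_comm, ZA]; simp [hi]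
          · rw [hj, hi', Xi0 i hi, X0j j' hj', AB]; simp [hi]
        · by_cases hj' : j' = j0
          · rw [hj, hj', Xi0 i hi, Xi0 i' hi', AA]; simp
          · rw [hj, Xi0 i hi, Xij i' j' hi' hj', AC]; simp [Ne.symm hj']
      · by_cases hi' : i' = i0
        · by_cases hj' : j' = j0
          · rw [hi', hj', Xij i j hi hj, X00, dotProduct_comm, ZC]; simp [hi]
          · rw [hi', Xij i j hi hj, X0j j' hj', dotProduct_comm, BC]; simp [hi]
        · by_cases hj' : j' = j0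
          · rw [hj', Xij i j hi hj, Xi0 i' hi', dotProduct_comm, AC]; simp [hj]
          · rw [Xij i j hi hj, Xij i' j' hi' hj', CC]; simp
  · intro i j hi hj
    rw [Xi0 i hi, X0j j hj, Xij i j hi hj]
    have := hEq ⟨i, hi⟩ ⟨j, hj⟩
    rw [hγ'] at this
    exact this

end Cfsg.Agent.Lib.Helper25.Sunflower
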